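import Cfsg.Agent.Lead.MinimalPair

set_option autoImplicit false
open Pointwise

namespace Cfsg.Agent.Lead

open Subgroup

theorem pow_le_of_sylow_inf {p : ℕ} (hp : p.Prime) {k r c e N : ℕ} (hN : N ≠ 0)
    (h1 : k * r = p ^ N.factorization p) (h2 : k ∣ c) (h3 : c * p ^ e = N) : p ^ e ≤ r := by
  obtain ⟨j, hj, rfl⟩ := (Nat.dvd_prime_pow hp).mp (Dvd.intro r h1)
  have hr : r = p ^ (N.factorization p - j) := by
    have h4 : p ^ j * r = p ^ j * p ^ (N.factorization p - j) := by
      rw [h1, ← pow_add, Nat.add_sub_cancel' hj]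
    exact Nat.eq_of_mul_eq_mul_left (Nat.pow_pos hp.pos) h4
  have h5 : p ^ (j + e) ∣ N := by
    rw [pow_add, ← h3]
    exact Nat.mul_dvd_mul h2 dvd_rfl
  have h6 : j + e ≤ N.factorization p := (hp.pow_dvd_iff_le_factorization hN).mp h5
  rw [hr]
  exact Nat.pow_le_pow_right hp.pos (by omega)

/-- If `C` has `p`-power index then `G = P C` for every Sylow `p`-subgroup `P`. -/
theorem exists_mul_of_index_prime_pow {G : Type*} [Group G] [Finite G] {p : ℕ}
    [hp : Fact p.Prime] (P : Sylow p G) (C : Subgroup G) (e : ℕ) (hidx : C.index = p ^ e)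
    (g : G) : ∃ u ∈ (P : Subgroup G), ∃ c ∈ C, g = u * c := by
  classical
  have hG0 : Nat.card G ≠ 0 := Nat.card_pos.ne'
  have hk1 : Nat.card (C ⊓ (P : Subgroup G) : Subgroup G) * C.relIndex (P : Subgroup G) =
      p ^ (Nat.card G).factorization p := by
    have h := Subgroup.relIndex_mul_relIndex (H := (⊥ : Subgroup G))
      (K := C ⊓ (P : Subgroup G)) (L := (P : Subgroup G)) bot_le inf_le_right
    rw [Subgroup.relIndex_bot_left, Subgroup.relIndex_bot_left, Subgroup.inf_relIndex_right] at h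
    rw [h, Sylow.card_eq_multiplicity]
  have hk2 : Nat.card (C ⊓ (P : Subgroup G) : Subgroup G) ∣ Nat.card C :=
    Subgroup.card_dvd_of_le inf_le_left
  have hk3 : Nat.card C * p ^ e = Nat.card G := by rw [← hidx]; exact Subgroup.card_mul_index C
  have hle : p ^ e ≤ C.relIndex (P : Subgroup G) := pow_le_of_sylow_inf hp.1 hG0 hk1 hk2 hk3
  let ψ : (P : Subgroup G) ⧸ (C.subgroupOf (P : Subgroup G)) → G ⧸ C :=
    fun q => Quotient.liftOn' q (fun u => (QuotientGroup.mk (u : G) : G ⧸ C)) (by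
      intro a b hab
      have hab' := QuotientGroup.leftRel_apply.mp hab
      exact QuotientGroup.eq.mpr (Subgroup.mem_subgroupOf.mp hab'))
  have hinj : Function.Injective ψ := by
    intro q1 q2
    refine Quotient.inductionOn₂' q1 q2 ?_
    intro a b hab
    have hab' : (QuotientGroup.mk (a : G) : G ⧸ C) = QuotientGroup.mk (b : G) := hab
    exact QuotientGroup.eq.mpr (Subgroup.mem_subgroupOf.mpr (QuotientGroup.eq.mp hab'))
  have hcard : Nat.card (G ⧸ C) ≤
      Nat.card ((P : Subgroup G) ⧸ (C.subgroupOf (P : Subgroup G))) := by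
    rw [← Subgroup.index_eq_card, ← Subgroup.index_eq_card, hidx]
    exact hle
  have hsurj : Function.Surjective ψ := (hinj.bijective_of_nat_card_le hcard).2
  obtain ⟨q, hq⟩ := hsurj (QuotientGroup.mk g)
  revert hq
  refine Quotient.inductionOn' q ?_
  intro u hu
  have hu' : (QuotientGroup.mk (u : G) : G ⧸ C) = QuotientGroup.mk g := hu
  exact ⟨u, u.2, (u : G)⁻¹ * g, QuotientGroup.eq.mp hu', by group⟩

end Cfsg.Agent.Lead
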