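import Mathlib
import Cfsg.Agent.Helper20.HHDual
import Cfsg.Agent.Helper20.PSolvHall
import Cfsg.Agent.Helper1.S4Sec
import Cfsg.Agent.Helper1.QdPlane
import Cfsg.Agent.Helper1.Basic2
import Cfsg.Agent.Helper11.TI2
import Cfsg.Agent.Helper16.PCore
import Cfsg.Agent.Helper9.Fitting
import Cfsg.Agent.Helper9.PComp

set_option autoImplicit false
set_option maxHeartbeats 1000000

namespace Cfsg.Agent.Lead.CN

open Cfsg

universe u

theorem cn_pow_card_of_mem {G : Type*} [Group G] (K : Subgroup G) {x : G} (hx : x ∈ K) :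
    x ^ Nat.card K = 1 := by
  have h1 : orderOf x ∣ Nat.card K := by
    rw [← Subgroup.orderOf_mk x hx]; exact orderOf_dvd_natCard _
  exact orderOf_dvd_iff_pow_eq_one.mp h1

theorem cn_eq_one_of_pow_coprime {G : Type*} [Group G] {x : G} {m n : ℕ} (hm : x ^ m = 1)
    (hn : x ^ n = 1) (hmn : m.Coprime n) : x = 1 := by
  have h1 := orderOf_dvd_of_pow_eq_one hm
  have h2 := orderOf_dvd_of_pow_eq_one hn
  have h3 : orderOf x ∣ 1 := by
    have := Nat.dvd_gcd h1 h2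
    rwa [Nat.Coprime.gcd_eq_one hmn] at this
  exact orderOf_eq_one_iff.mp (Nat.dvd_one.mp h3)

/-- `[v, a]`-type commutators of a "cyclic normal" element lie in `⟨a^p⟩`. -/
theorem cn_comm_mem {Γ : Type*} [Group Γ] (p : ℕ) (hpp : p.Prime) (V : Subgroup Γ) [hVn : V.Normal]
    (a : Γ) (haV : a ∉ V) (hap : a ^ p ∈ V)
    (hnorm : ∀ v ∈ V, v * a * v⁻¹ ∈ Subgroup.zpowers a) (v : Γ) (hv : v ∈ V) :
    a * v * a⁻¹ * v⁻¹ ∈ Subgroup.zpowers (a ^ p) := by
  obtain ⟨k, hk⟩ := Subgroup.mem_zpowers_iff.mp (hnorm v hv)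
  have h1 : a * v * a⁻¹ * v⁻¹ = a ^ (1 - k) := by
    have h0 : v * a⁻¹ * v⁻¹ = (a ^ k)⁻¹ := by rw [hk]; group
    calc a * v * a⁻¹ * v⁻¹ = a * (v * a⁻¹ * v⁻¹) := by group
      _ = a * (a ^ k)⁻¹ := by rw [h0]
      _ = a ^ (1 - k) := by rw [zpow_sub, zpow_one]
  have h2 : a ^ (1 - k) ∈ V := by
    rw [← h1]
    exact V.mul_mem (hVn.conj_mem v hv a) (V.inv_mem hv)
  rw [h1]
  generalize (1 - k) = m at h2 ⊢
  by_cases hdvd : (p : ℤ) ∣ m
  · obtain ⟨m', rfl⟩ := hdvd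
    rw [zpow_mul, zpow_natCast]
    exact Subgroup.zpow_mem_zpowers _ _
  · exfalso
    have h3 : ¬ p ∣ m.natAbs := fun h => hdvd (Int.natCast_dvd.mpr h)
    have h4 : Nat.Coprime m.natAbs p := ((Nat.Prime.coprime_iff_not_dvd hpp).mpr h3).symm
    have hcop : IsCoprime m (p : ℤ) := by
      rw [Int.isCoprime_iff_gcd_eq_one]
      show Nat.gcd m.natAbs (p : ℤ).natAbs = 1
      rw [Int.natAbs_natCast]
      exact h4
    obtain ⟨x, y, hxy⟩ := hcop
    apply haV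
    have e : a = (a ^ m) ^ x * (a ^ p) ^ y := by
      rw [← zpow_mul, ← zpow_natCast a p, ← zpow_mul, ← zpow_add]
      have e1 : m * x + (p : ℤ) * y = 1 := by rw [mul_comm m x, mul_comm (p : ℤ) y]; exact hxy
      rw [e1, zpow_one]
    rw [e]
    exact V.mul_mem (V.zpow_mem h2 x) (V.zpow_mem hap y)

theorem cn_comm_mem_inv {Γ : Type*} [Group Γ] (p : ℕ) (hpp : p.Prime) (V : Subgroup Γ)
    [hVn : V.Normal] (a : Γ) (haV : a ∉ V) (hap : a ^ p ∈ V)
    (hnorm : ∀ v ∈ V, v * a * v⁻¹ ∈ Subgroup.zpowers a) (v : Γ) (hv : v ∈ V) :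
    a⁻¹ * v * a * v⁻¹ ∈ Subgroup.zpowers (a ^ p) := by
  obtain ⟨k, hk⟩ := Subgroup.mem_zpowers_iff.mp (cn_comm_mem p hpp V a haV hap hnorm v hv)
  have hc : Commute a ((a ^ p) ^ k) := ((Commute.refl a).pow_right p).zpow_right k
  have e : a⁻¹ * v * a * v⁻¹ = ((a ^ p) ^ k)⁻¹ := by
    calc a⁻¹ * v * a * v⁻¹ = a⁻¹ * (a * v * a⁻¹ * v⁻¹)⁻¹ * a := by group
      _ = a⁻¹ * ((a ^ p) ^ k)⁻¹ * a := by rw [hk]
      _ = ((a ^ p) ^ k)⁻¹ := by
        rw [mul_assoc, ← hc.inv_right.eq, inv_mul_cancel_left]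
  rw [e]
  exact Subgroup.inv_mem _ (Subgroup.zpow_mem_zpowers _ _)

/-- The elements normalizing `N` and acting trivially on `V / N`. -/
def cnStab {Γ : Type*} [Group Γ] (V N : Subgroup Γ) : Subgroup Γ where
  carrier := {h | (∀ n ∈ N, h * n * h⁻¹ ∈ N) ∧ (∀ n ∈ N, h⁻¹ * n * h ∈ N) ∧
    ∀ v ∈ V, h * v * h⁻¹ * v⁻¹ ∈ N}
  one_mem' := by
    refine ⟨fun n hn => by simpa using hn, fun n hn => by simpa using hn, fun v _ => by simp⟩
  mul_mem' := by
    rintro h k ⟨h1, h2, h3⟩ ⟨k1, k2, k3⟩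
    refine ⟨fun n hn => ?_, fun n hn => ?_, fun v hv => ?_⟩
    · have h0 := h1 _ (k1 n hn)
      have e : h * k * n * (h * k)⁻¹ = h * (k * n * k⁻¹) * h⁻¹ := by group
      rw [e]; exact h0
    · have h0 := k2 _ (h2 n hn)
      have e : (h * k)⁻¹ * n * (h * k) = k⁻¹ * (h⁻¹ * n * h) * k := by group
      rw [e]; exact h0
    · have e : h * k * v * (h * k)⁻¹ * v⁻¹
          = h * (k * v * k⁻¹ * v⁻¹) * h⁻¹ * (h * v * h⁻¹ * v⁻¹) := by group
      rw [e]; exact N.mul_mem (h1 _ (k3 v hv)) (h3 v hv)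
  inv_mem' := by
    rintro h ⟨h1, h2, h3⟩
    refine ⟨fun n hn => ?_, fun n hn => ?_, fun v hv => ?_⟩
    · simpa using h2 n hn
    · simpa using h1 n hn
    · have h0 := h2 _ (N.inv_mem (h3 v hv))
      have e : h⁻¹ * v * h⁻¹⁻¹ * v⁻¹ = h⁻¹ * (h * v * h⁻¹ * v⁻¹)⁻¹ * h := by group
      rw [e]; exact h0

theorem cn_mem_stab {Γ : Type*} [Group Γ] {V N : Subgroup Γ} {h : Γ} :
    h ∈ cnStab V N ↔ (∀ n ∈ N, h * n * h⁻¹ ∈ N) ∧ (∀ n ∈ N, h⁻¹ * n * h ∈ N) ∧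
      ∀ v ∈ V, h * v * h⁻¹ * v⁻¹ ∈ N := Iff.rfl

theorem cn_stab_pow {Γ : Type*} [Group Γ] (p : ℕ) (V N : Subgroup Γ) (hNV : N ≤ V)
    (hVexp : ∀ v ∈ V, v ^ p = 1) (hCV : Subgroup.centralizer (V : Set Γ) ≤ V)
    (h : Γ) (hS : h ∈ cnStab V N) (hcen : ∀ n ∈ N, h * n * h⁻¹ = n) : h ^ p ∈ V := by
  apply hCV
  rw [Subgroup.mem_centralizer_iff]
  intro v hv
  obtain ⟨c, hc⟩ : ∃ c, c = h * v * h⁻¹ * v⁻¹ := ⟨_, rfl⟩
  have hcN : c ∈ N := by rw [hc]; exact (cn_mem_stab.mp hS).2.2 v hv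
  have h1 : h * v * h⁻¹ = c * v := by rw [hc]; group
  have h2 := Cfsg.Agent.Helper1.s4_conj_pow_of_comm h c v h1 (hcen c hcN) p
  rw [hVexp c (hNV hcN), one_mul] at h2
  calc v * h ^ p = (h ^ p * v * (h ^ p)⁻¹) * h ^ p := by rw [h2]
    _ = h ^ p * v := by group

theorem cn_conj_pow_agree {Γ : Type*} [Group Γ] (N : Subgroup Γ) (g b : Γ)
    (hgb : ∀ n ∈ N, g * n * g⁻¹ = b * n * b⁻¹) (hb : ∀ n ∈ N, b * n * b⁻¹ ∈ N) (k : ℕ) :
    ∀ n ∈ N, g ^ k * n * (g ^ k)⁻¹ = b ^ k * n * (b ^ k)⁻¹ := by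
  have hbk : ∀ k : ℕ, ∀ n ∈ N, b ^ k * n * (b ^ k)⁻¹ ∈ N := by
    intro k
    induction k with
    | zero => intro n hn; simpa using hn
    | succ k ih =>
      intro n hn
      have e : b ^ (k + 1) * n * (b ^ (k + 1))⁻¹ = b * (b ^ k * n * (b ^ k)⁻¹) * b⁻¹ := by
        rw [pow_succ']
        generalize b ^ k = y
        group
      rw [e]; exact hb _ (ih n hn)
  induction k with
  | zero => intro n _; simp
  | succ k ih =>
    intro n hn
    have e1 : g ^ (k + 1) * n * (g ^ (k + 1))⁻¹ = g * (g ^ k * n * (g ^ k)⁻¹) * g⁻¹ := by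
      rw [pow_succ']
      generalize g ^ k = y
      group
    have e2 : b ^ (k + 1) * n * (b ^ (k + 1))⁻¹ = b * (b ^ k * n * (b ^ k)⁻¹) * b⁻¹ := by
      rw [pow_succ']
      generalize b ^ k = y
      group
    rw [e1, e2, ih n hn, hgb _ (hbk k n hn)]

theorem cn_conj_inv_closure {Γ : Type*} [Group Γ] (s : Set Γ) (z : Γ)
    (hcomm : ∀ x ∈ Subgroup.closure s, ∀ y ∈ Subgroup.closure s, x * y = y * x)
    (hz : ∀ x ∈ s, z * x * z⁻¹ = x⁻¹) :
    ∀ n ∈ Subgroup.closure s, z * n * z⁻¹ = n⁻¹ := by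
  intro n hn
  induction hn using Subgroup.closure_induction with
  | mem x hx => exact hz x hx
  | one => simp
  | mul x y hx hy ihx ihy =>
    have e : z * (x * y) * z⁻¹ = (z * x * z⁻¹) * (z * y * z⁻¹) := by group
    rw [e, ihx, ihy, mul_inv_rev]
    exact hcomm _ (Subgroup.inv_mem _ hx) _ (Subgroup.inv_mem _ hy)
  | inv x hx ih =>
    have e : z * x⁻¹ * z⁻¹ = (z * x * z⁻¹)⁻¹ := by group
    rw [e, ih]

theorem cn_conj_fix_closure {Γ : Type*} [Group Γ] (s : Set Γ) (z : Γ)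
    (hz : ∀ x ∈ s, z * x * z⁻¹ = x) : ∀ n ∈ Subgroup.closure s, z * n * z⁻¹ = n := by
  intro n hn
  induction hn using Subgroup.closure_induction with
  | mem x hx => exact hz x hx
  | one => simp
  | mul x y hx hy ihx ihy =>
    have e : z * (x * y) * z⁻¹ = (z * x * z⁻¹) * (z * y * z⁻¹) := by group
    rw [e, ihx, ihy]
  | inv x hx ih =>
    have e : z * x⁻¹ * z⁻¹ = (z * x * z⁻¹)⁻¹ := by group
    rw [e, ih]

theorem cn_pow_coset {Γ : Type*} [Group Γ] (a v c : Γ) (h1 : a * v * a⁻¹ = c * v)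
    (h2 : a * c * a⁻¹ = c) (hcv : c * v = v * c) (n : ℕ) :
    (v * a) ^ n = v ^ n * c ^ (n.choose 2) * a ^ n := by
  induction n with
  | zero => simp
  | succ n ih =>
    have h3 : a ^ n * v = c ^ n * v * a ^ n := by
      have h0 := Cfsg.Agent.Helper1.s4_conj_pow_of_comm a c v h1 h2 n
      rw [← h0]; group
    have hC : Commute c v := hcv
    have e2 : (n + 1).choose 2 = n + n.choose 2 := by
      rw [show (2 : ℕ) = 1 + 1 from rfl, Nat.choose_succ_succ', Nat.choose_one_right]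
    rw [pow_succ (v * a) n, ih, e2]
    calc v ^ n * c ^ n.choose 2 * a ^ n * (v * a)
        = v ^ n * c ^ n.choose 2 * (a ^ n * v) * a := by simp only [mul_assoc]
      _ = v ^ n * c ^ n.choose 2 * (c ^ n * v * a ^ n) * a := by rw [h3]
      _ = v ^ n * (c ^ n.choose 2 * c ^ n * v) * (a ^ n * a) := by simp only [mul_assoc]
      _ = v ^ n * (v * (c ^ n.choose 2 * c ^ n)) * (a ^ n * a) := by
          rw [((hC.pow_left (n.choose 2)).mul_left (hC.pow_left n)).eq]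
      _ = v ^ (n + 1) * c ^ (n + n.choose 2) * a ^ (n + 1) := by
          rw [pow_succ v n, pow_succ a n, pow_add c n (n.choose 2), pow_mul_comm c (n.choose 2) n]
          simp only [mul_assoc]

theorem cn_gen_of_prime {Γ : Type*} [Group Γ] [Finite Γ] (p : ℕ) [Fact p.Prime] (u c : Γ)
    (hu : u ^ p = 1) (hu1 : u ≠ 1) (hc : c ∈ Subgroup.zpowers u) (hc1 : c ≠ 1) (x : Γ)
    (hx : x ∈ Subgroup.zpowers u) : ∃ i : ℕ, c ^ i = x := by
  have hord : orderOf u = p := orderOf_eq_prime hu hu1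
  have hcard : Nat.card (Subgroup.zpowers u) = p := by rw [Nat.card_zpowers, hord]
  have hgen := zpowers_eq_top_of_prime_card hcard (g := (⟨c, hc⟩ : Subgroup.zpowers u))
    (fun h => hc1 (by simpa using congrArg Subtype.val h))
  have hmem : (⟨x, hx⟩ : Subgroup.zpowers u) ∈
      Subgroup.zpowers (⟨c, hc⟩ : Subgroup.zpowers u) := by
    rw [hgen]; exact Subgroup.mem_top _
  rw [← mem_powers_iff_mem_zpowers] at hmem
  obtain ⟨i, hi⟩ := (Submonoid.mem_powers_iff _ _).mp hmem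
  exact ⟨i, by simpa using congrArg Subtype.val hi⟩

/-- The core configuration: `O_p(Γ)` elementary abelian and self-centralizing. -/
theorem cn_core {Γ : Type u} [Group Γ] [Finite Γ] (p : ℕ) [hp : Fact p.Prime]
    (hsol : Cfsg.IsPSolvable p Γ)
    (hVab : ∀ v ∈ Cfsg.pCore p Γ, ∀ w ∈ Cfsg.pCore p Γ, v * w = w * v)
    (hVexp : ∀ v ∈ Cfsg.pCore p Γ, v ^ p = 1)
    (hCV : Subgroup.centralizer (Cfsg.pCore p Γ : Set Γ) ≤ Cfsg.pCore p Γ)
    (a : Γ) (haV : a ∉ Cfsg.pCore p Γ) (hap : a ^ p ∈ Cfsg.pCore p Γ)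
    (hnorm : ∀ v ∈ Cfsg.pCore p Γ, v * a * v⁻¹ ∈ Subgroup.zpowers a)
    (hgood : p ≠ 2 ∨ ¬ Cfsg.Involves (Equiv.Perm (Fin 4)) Γ) : False := by
  classical
  have hpp : p.Prime := hp.out
  have hOp : Cfsg.pCore p (Γ ⧸ Cfsg.pCore p Γ) = ⊥ :=
    Cfsg.Agent.Helper20.PLen.pCore_quot_pCore_eq_bot p
  have hsolq : Cfsg.IsPSolvable p (Γ ⧸ Cfsg.pCore p Γ) :=
    Cfsg.Agent.Helper20.isPSolvable_quotient p hsol _
  have hdual := Cfsg.Agent.Helper20.PLen.centralizer_pPrimeCore_le_of_psolvable p hsolq hOp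
  obtain ⟨Kb, hKb⟩ : ∃ Kb : Subgroup (Γ ⧸ Cfsg.pCore p Γ),
      Kb = Cfsg.pPrimeCore p (Γ ⧸ Cfsg.pCore p Γ) := ⟨_, rfl⟩
  have hKbn : Kb.Normal := by rw [hKb]; infer_instance
  have hKbcop : (Nat.card Kb).Coprime p := by
    rw [hKb]; exact Cfsg.Agent.Helper9.pPrimeCore_coprime p
  rw [← hKb] at hdual
  obtain ⟨π, hπ⟩ : ∃ π : Γ →* Γ ⧸ Cfsg.pCore p Γ, π = QuotientGroup.mk' (Cfsg.pCore p Γ) :=
    ⟨_, rfl⟩
  have hπsurj : Function.Surjective π := by rw [hπ]; exact QuotientGroup.mk'_surjective _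
  obtain ⟨V, hV⟩ : ∃ V : Subgroup Γ, V = Cfsg.pCore p Γ := ⟨_, rfl⟩
  have hVn : V.Normal := by rw [hV]; infer_instance
  have hπker : ∀ x : Γ, π x = 1 ↔ x ∈ V := by
    intro x; rw [hπ, hV]; exact QuotientGroup.eq_one_iff x
  rw [← hV] at hVab hVexp hCV haV hap hnorm
  have hap0 : a ^ p ∈ V := hap
  obtain ⟨u, hu⟩ : ∃ u : Γ, u = a ^ p := ⟨_, rfl⟩
  rw [← hu] at hap
  have hA1 : ∀ v ∈ V, a * v * a⁻¹ * v⁻¹ ∈ Subgroup.zpowers u := by
    intro v hv; rw [hu]; exact cn_comm_mem p hpp V a haV hap0 hnorm v hv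
  have hA2 : ∀ v ∈ V, a⁻¹ * v * a * v⁻¹ ∈ Subgroup.zpowers u := by
    intro v hv; rw [hu]; exact cn_comm_mem_inv p hpp V a haV hap0 hnorm v hv
  have hcomm_a_u : a * u * a⁻¹ = u := by rw [hu, ← conj_pow, mul_inv_cancel_right]
  have hup : u ^ p = 1 := hVexp u hap
  have hu1 : u ≠ 1 := by
    intro h1
    apply haV
    apply hCV
    rw [Subgroup.mem_centralizer_iff]
    intro v hv
    have h0 := hA1 v hv
    rw [h1, Subgroup.zpowers_one_eq_bot, Subgroup.mem_bot] at h0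
    have e : a * v = (a * v * a⁻¹ * v⁻¹) * (v * a) := by group
    rw [h0, one_mul] at e
    exact e.symm
  -- the element `y`
  have hπa_ne : π a ≠ 1 := fun h => haV ((hπker a).mp h)
  have hπap : π a ^ p = 1 := by rw [← map_pow, ← hu]; exact (hπker u).mpr hap
  have hπa_notK : π a ∉ Kb := by
    intro h
    exact hπa_ne (cn_eq_one_of_pow_coprime (cn_pow_card_of_mem Kb h) hπap hKbcop)
  have hπa_notC : π a ∉ Subgroup.centralizer (Kb : Set (Γ ⧸ Cfsg.pCore p Γ)) :=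
    fun h => hπa_notK (hdual h)
  obtain ⟨kb, hkb, hkbne⟩ : ∃ kb ∈ Kb, kb * π a ≠ π a * kb := by
    by_contra hcon
    push Not at hcon
    exact hπa_notC (Subgroup.mem_centralizer_iff.mpr hcon)
  obtain ⟨y, rfl⟩ := hπsurj kb
  obtain ⟨a', ha'⟩ : ∃ a' : Γ, a' = y * a * y⁻¹ := ⟨_, rfl⟩
  obtain ⟨u', hu'⟩ : ∃ u' : Γ, u' = y * u * y⁻¹ := ⟨_, rfl⟩
  have hu'pow : u' = a' ^ p := by rw [hu', ha', conj_pow, hu]
  have hu'V : u' ∈ V := by rw [hu']; exact hVn.conj_mem u hap y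
  have ha'V : a' ∉ V := by
    intro h
    apply haV
    have h0 := hVn.conj_mem a' h y⁻¹
    rw [ha'] at h0
    have e : y⁻¹ * (y * a * y⁻¹) * y⁻¹⁻¹ = a := by group
    rw [e] at h0; exact h0
  have hnorm' : ∀ v ∈ V, v * a' * v⁻¹ ∈ Subgroup.zpowers a' := by
    intro v hv
    have hw : y⁻¹ * v * y ∈ V := by
      have h0 := hVn.conj_mem v hv y⁻¹; simpa using h0
    obtain ⟨k, hk⟩ := Subgroup.mem_zpowers_iff.mp (hnorm _ hw)
    refine Subgroup.mem_zpowers_iff.mpr ⟨k, ?_⟩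
    rw [ha', conj_zpow, hk]; group
  have hap' : a' ^ p ∈ V := by rw [← hu'pow]; exact hu'V
  have hA1' : ∀ v ∈ V, a' * v * a'⁻¹ * v⁻¹ ∈ Subgroup.zpowers u' := by
    intro v hv; rw [hu'pow]; exact cn_comm_mem p hpp V a' ha'V hap' hnorm' v hv
  have hA2' : ∀ v ∈ V, a'⁻¹ * v * a' * v⁻¹ ∈ Subgroup.zpowers u' := by
    intro v hv; rw [hu'pow]; exact cn_comm_mem_inv p hpp V a' ha'V hap' hnorm' v hv
  have hcomm_a'_u' : a' * u' * a'⁻¹ = u' := by rw [hu'pow, ← conj_pow, mul_inv_cancel_right]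
  have hu'p : u' ^ p = 1 := hVexp u' hu'V
  have hu'1 : u' ≠ 1 := by
    intro h; apply hu1; rw [hu'] at h; exact conj_eq_one_iff.mp h
  -- the subgroup `N`
  obtain ⟨N, hN⟩ : ∃ N : Subgroup Γ, N = Subgroup.closure ({u, u'} : Set Γ) := ⟨_, rfl⟩
  have huN : u ∈ N := by rw [hN]; exact Subgroup.subset_closure (by simp)
  have hu'N : u' ∈ N := by rw [hN]; exact Subgroup.subset_closure (by simp)
  have hNV : N ≤ V := by
    rw [hN, Subgroup.closure_le]
    intro x hx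
    rcases Set.mem_insert_iff.mp hx with h | h
    · rw [h]; exact hap
    · rw [Set.mem_singleton_iff.mp h]; exact hu'V
  have hNcomm : ∀ x ∈ N, ∀ w ∈ N, x * w = w * x :=
    fun x hx w hw => hVab x (hNV hx) w (hNV hw)
  have hzuN : Subgroup.zpowers u ≤ N := by rw [Subgroup.zpowers_le]; exact huN
  have hzu'N : Subgroup.zpowers u' ≤ N := by rw [Subgroup.zpowers_le]; exact hu'N
  have haS : a ∈ cnStab V N := by
    refine cn_mem_stab.mpr ⟨fun n hn => ?_, fun n hn => ?_, fun v hv => hzuN (hA1 v hv)⟩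
    · have e : a * n * a⁻¹ = (a * n * a⁻¹ * n⁻¹) * n := by group
      rw [e]; exact N.mul_mem (hzuN (hA1 n (hNV hn))) hn
    · have e : a⁻¹ * n * a = (a⁻¹ * n * a * n⁻¹) * n := by group
      rw [e]; exact N.mul_mem (hzuN (hA2 n (hNV hn))) hn
  have ha'S : a' ∈ cnStab V N := by
    refine cn_mem_stab.mpr ⟨fun n hn => ?_, fun n hn => ?_, fun v hv => hzu'N (hA1' v hv)⟩
    · have e : a' * n * a'⁻¹ = (a' * n * a'⁻¹ * n⁻¹) * n := by group
      rw [e]; exact N.mul_mem (hzu'N (hA1' n (hNV hn))) hn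
    · have e : a'⁻¹ * n * a' = (a'⁻¹ * n * a' * n⁻¹) * n := by group
      rw [e]; exact N.mul_mem (hzu'N (hA2' n (hNV hn))) hn
  have hgenfix : ∀ t : Γ, t * u * t⁻¹ = u → t * u' * t⁻¹ = u' → ∀ n ∈ N, t * n * t⁻¹ = n := by
    intro t h1 h2
    rw [hN]
    exact cn_conj_fix_closure _ t (by
      intro x hx
      rcases Set.mem_insert_iff.mp hx with h | h
      · rw [h]; exact h1
      · rw [Set.mem_singleton_iff.mp h]; exact h2)
  -- the commutator `g`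
  obtain ⟨g, hg⟩ : ∃ g : Γ, g = a' * a⁻¹ := ⟨_, rfl⟩
  have hπg : π g ∈ Kb := by
    have e : π g = π y * (π a * (π y)⁻¹ * (π a)⁻¹) := by
      rw [hg, ha']; simp only [map_mul, map_inv, mul_assoc]
    rw [e]
    exact Kb.mul_mem hkb (hKbn.conj_mem _ (Kb.inv_mem hkb) _)
  have hπg1 : π g ≠ 1 := by
    intro h
    apply hkbne
    have e : π g = π y * π a * (π y)⁻¹ * (π a)⁻¹ := by
      rw [hg, ha']; simp only [map_mul, map_inv]
    rw [e] at h
    have e2 : π y * π a = (π y * π a * (π y)⁻¹ * (π a)⁻¹) * (π a * π y) := by group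
    rw [h, one_mul] at e2
    exact e2
  have hB1 : ∀ i : ℕ, g ^ (p ^ i) ∉ V := by
    intro i h
    apply hπg1
    have h1 : π g ^ (p ^ i) = 1 := by rw [← map_pow]; exact (hπker _).mpr h
    exact cn_eq_one_of_pow_coprime (cn_pow_card_of_mem Kb hπg) h1
      (Nat.Coprime.pow_right i hKbcop)
  obtain ⟨c, hc⟩ : ∃ c : Γ, c = a * u' * a⁻¹ * u'⁻¹ := ⟨_, rfl⟩
  obtain ⟨d, hd⟩ : ∃ d : Γ, d = a' * u * a'⁻¹ * u⁻¹ := ⟨_, rfl⟩
  have hcU : c ∈ Subgroup.zpowers u := by rw [hc]; exact hA1 u' hu'V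
  have hdU : d ∈ Subgroup.zpowers u' := by rw [hd]; exact hA1' u hap
  have hstab2 : ∀ h ∈ cnStab V N, (∀ n ∈ N, h * n * h⁻¹ = n) → h ^ p ∈ V :=
    fun h hS hcen => cn_stab_pow p V N hNV hVexp hCV h hS hcen
  have hgS : g ∈ cnStab V N := by
    rw [hg]; exact (cnStab V N).mul_mem ha'S ((cnStab V N).inv_mem haS)
  have hkey : ¬ (∀ n ∈ N, g ^ p * n * (g ^ p)⁻¹ = n) := by
    intro h
    have h1 := hstab2 (g ^ p) ((cnStab V N).pow_mem hgS p) h
    rw [← pow_mul, ← pow_two] at h1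
    exact hB1 2 h1
  have hc1 : c ≠ 1 := by
    intro hc1
    have hau' : a * u' * a⁻¹ = u' := by
      have e : a * u' * a⁻¹ = (a * u' * a⁻¹ * u'⁻¹) * u' := by group
      rw [e, ← hc, hc1, one_mul]
    have hacen := hgenfix a hcomm_a_u hau'
    apply hkey
    have hgb : ∀ n ∈ N, g * n * g⁻¹ = a' * n * a'⁻¹ := by
      intro n hn
      have h1 : a⁻¹ * n * a = n := by
        have h0 := hacen n hn
        calc a⁻¹ * n * a = a⁻¹ * (a * n * a⁻¹) * a := by rw [h0]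
          _ = n := by group
      rw [hg]
      calc a' * a⁻¹ * n * (a' * a⁻¹)⁻¹ = a' * (a⁻¹ * n * a) * a'⁻¹ := by group
        _ = a' * n * a'⁻¹ := by rw [h1]
    have h2 := cn_conj_pow_agree N g a' hgb (cn_mem_stab.mp ha'S).1 p
    intro n hn
    rw [h2 n hn, ← hu'pow, hNcomm u' hu'N n hn, mul_inv_cancel_right]
  have hd1 : d ≠ 1 := by
    intro hd1
    have ha'u : a' * u * a'⁻¹ = u := by
      have e : a' * u * a'⁻¹ = (a' * u * a'⁻¹ * u⁻¹) * u := by group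
      rw [e, ← hd, hd1, one_mul]
    have ha'cen := hgenfix a' ha'u hcomm_a'_u'
    apply hkey
    have hgb : ∀ n ∈ N, g * n * g⁻¹ = a⁻¹ * n * a⁻¹⁻¹ := by
      intro n hn
      have hn' : a⁻¹ * n * a ∈ N := (cn_mem_stab.mp haS).2.1 n hn
      rw [hg]
      calc a' * a⁻¹ * n * (a' * a⁻¹)⁻¹ = a' * (a⁻¹ * n * a) * a'⁻¹ := by group
        _ = a⁻¹ * n * a := ha'cen _ hn'
        _ = a⁻¹ * n * a⁻¹⁻¹ := by rw [inv_inv]
    have hb : ∀ n ∈ N, a⁻¹ * n * a⁻¹⁻¹ ∈ N := by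
      intro n hn; rw [inv_inv]; exact (cn_mem_stab.mp haS).2.1 n hn
    have h2 := cn_conj_pow_agree N g a⁻¹ hgb hb p
    intro n hn
    rw [h2 n hn, inv_pow, inv_inv, ← hu, mul_assoc, hNcomm n hn u huN, inv_mul_cancel_left]
  have hacc : a * c * a⁻¹ = c := by
    obtain ⟨k, hk⟩ := Subgroup.mem_zpowers_iff.mp hcU
    rw [← hk, ← conj_zpow, hcomm_a_u]
  have ha'dd : a' * d * a'⁻¹ = d := by
    obtain ⟨k, hk⟩ := Subgroup.mem_zpowers_iff.mp hdU
    rw [← hk, ← conj_zpow, hcomm_a'_u']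
  have hau'c : a * u' * a⁻¹ = c * u' := by rw [hc]; group
  have ha'ud : a' * u * a'⁻¹ = d * u := by rw [hd]; group
  have huu'comm : u * u' = u' * u := hVab u hap u' hu'V
  by_cases hp2 : p = 2
  · -- the case `p = 2`: an `S₄` section
    have hS4 := hgood.resolve_left (fun h => h hp2)
    apply hS4
    subst hp2
    have hc_eq : c = u := by
      obtain ⟨i, hi⟩ := cn_gen_of_prime 2 u c hup hu1 hcU hc1 u (Subgroup.mem_zpowers u)
      have hc2 : c ^ 2 = 1 := hVexp c (hNV (hzuN hcU))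
      rcases Nat.even_or_odd' i with ⟨m, rfl | rfl⟩
      · exfalso; apply hu1; rw [← hi, pow_mul, hc2, one_pow]
      · rw [← hi, pow_succ, pow_mul, hc2, one_pow, one_mul]
    have hd_eq : d = u' := by
      obtain ⟨i, hi⟩ := cn_gen_of_prime 2 u' d hu'p hu'1 hdU hd1 u' (Subgroup.mem_zpowers u')
      have hd2 : d ^ 2 = 1 := hVexp d (hNV (hzu'N hdU))
      rcases Nat.even_or_odd' i with ⟨m, rfl | rfl⟩
      · exfalso; apply hu'1; rw [← hi, pow_mul, hd2, one_pow]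
      · rw [← hi, pow_succ, pow_mul, hd2, one_pow, one_mul]
    have hau' : a * u' * a⁻¹ = u * u' := by rw [hau'c, hc_eq]
    have ha'u : a' * u * a'⁻¹ = u' * u := by rw [ha'ud, hd_eq]
    have huu : u * u = 1 := by rw [← pow_two]; exact hup
    have hu'u' : u' * u' = 1 := by rw [← pow_two]; exact hu'p
    have hne : u' ≠ u := by
      intro h
      apply hc1
      rw [hc, h, hcomm_a_u, mul_inv_cancel]
    obtain ⟨x, hx⟩ : ∃ x : Γ, x = a * a' := ⟨_, rfl⟩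
    have hxS : x ∈ cnStab V N := by rw [hx]; exact (cnStab V N).mul_mem haS ha'S
    have hxu : x * u * x⁻¹ = u' := by
      rw [hx]
      calc a * a' * u * (a * a')⁻¹ = a * (a' * u * a'⁻¹) * a⁻¹ := by group
        _ = a * (u' * u) * a⁻¹ := by rw [ha'u]
        _ = (a * u' * a⁻¹) * (a * u * a⁻¹) := by group
        _ = u * u' * u := by rw [hau', hcomm_a_u]
        _ = u' := by rw [huu'comm, mul_assoc, huu, mul_one]
    have hxu' : x * u' * x⁻¹ = u * u' := by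
      rw [hx]
      calc a * a' * u' * (a * a')⁻¹ = a * (a' * u' * a'⁻¹) * a⁻¹ := by group
        _ = a * u' * a⁻¹ := by rw [hcomm_a'_u']
        _ = u * u' := hau'
    have hxuu' : x * (u * u') * x⁻¹ = u := by
      calc x * (u * u') * x⁻¹ = (x * u * x⁻¹) * (x * u' * x⁻¹) := by group
        _ = u' * (u * u') := by rw [hxu, hxu']
        _ = u := by rw [huu'comm, ← mul_assoc, hu'u', one_mul]
    have hx3u : x ^ 3 * u * (x ^ 3)⁻¹ = u := by
      calc x ^ 3 * u * (x ^ 3)⁻¹ = x * (x * (x * u * x⁻¹) * x⁻¹) * x⁻¹ := by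
            rw [pow_succ, pow_two]; group
        _ = x * (x * u' * x⁻¹) * x⁻¹ := by rw [hxu]
        _ = x * (u * u') * x⁻¹ := by rw [hxu']
        _ = u := hxuu'
    have hx3u' : x ^ 3 * u' * (x ^ 3)⁻¹ = u' := by
      calc x ^ 3 * u' * (x ^ 3)⁻¹ = x * (x * (x * u' * x⁻¹) * x⁻¹) * x⁻¹ := by
            rw [pow_succ, pow_two]; group
        _ = x * (x * (u * u') * x⁻¹) * x⁻¹ := by rw [hxu']
        _ = x * u * x⁻¹ := by rw [hxuu']
        _ = u' := hxu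
    have hcen_of : ∀ t : Γ, (∀ n ∈ N, t * n * t⁻¹ = n) →
        t ∈ Subgroup.centralizer (N : Set Γ) := by
      intro t ht
      rw [Subgroup.mem_centralizer_iff]
      intro n hn
      have h0 := ht n hn
      calc n * t = (t * n * t⁻¹) * t := by rw [h0]
        _ = t * n := by group
    have hVcen : ∀ t ∈ V, t ∈ Subgroup.centralizer (N : Set Γ) := by
      intro t ht
      rw [Subgroup.mem_centralizer_iff]
      intro n hn
      exact hVab n (hNV hn) t ht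
    have hax : a * x * a⁻¹ * x ∈ Subgroup.centralizer (N : Set Γ) := by
      have e : a * x * a⁻¹ * x = a ^ 2 * a' ^ 2 := by rw [hx, pow_two, pow_two]; group
      rw [e, ← hu, ← hu'pow]
      exact hVcen _ (V.mul_mem hap hu'V)
    have haa : a * a ∈ Subgroup.centralizer (N : Set Γ) := by
      have e : a * a = a ^ 2 := (pow_two a).symm
      rw [e, ← hu]; exact hVcen _ hap
    have hnorm_of : ∀ t ∈ cnStab V N, t ∈ Subgroup.normalizer (N : Set Γ) := by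
      intro t ht
      rw [Subgroup.mem_normalizer_iff]
      intro n
      constructor
      · intro hn; exact (cn_mem_stab.mp ht).1 n hn
      · intro hn
        have h0 := (cn_mem_stab.mp ht).2.1 _ hn
        have e : t⁻¹ * (t * n * t⁻¹) * t = n := by group
        rwa [e] at h0
    have hinvu : u⁻¹ = u := inv_eq_of_mul_eq_one_left huu
    have hinvu' : u'⁻¹ = u' := inv_eq_of_mul_eq_one_left hu'u'
    have hr1 : ∀ t : Γ, u * (u * t) = t := by intro t; rw [← mul_assoc, huu, one_mul]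
    have hr2 : ∀ t : Γ, u' * (u' * t) = t := by intro t; rw [← mul_assoc, hu'u', one_mul]
    have hr3 : u' * u = u * u' := huu'comm.symm
    have hr4 : ∀ t : Γ, u' * (u * t) = u * (u' * t) := by
      intro t; rw [← mul_assoc, hr3, mul_assoc]
    have hNelts : ∀ n ∈ N, n = 1 ∨ n = u ∨ n = u' ∨ n = u * u' := by
      intro n hn
      rw [hN] at hn
      induction hn using Subgroup.closure_induction with
      | mem x hx =>
        rcases Set.mem_insert_iff.mp hx with h | h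
        · exact Or.inr (Or.inl h)
        · exact Or.inr (Or.inr (Or.inl (Set.mem_singleton_iff.mp h)))
      | one => exact Or.inl rfl
      | mul x y _ _ ihx ihy =>
        rcases ihx with h | h | h | h <;> rcases ihy with h' | h' | h' | h' <;> rw [h, h'] <;>
          simp [mul_assoc, huu, hu'u', hr1, hr2, hr3, hr4]
      | inv x _ ih =>
        rcases ih with h | h | h | h <;> rw [h] <;>
          simp [mul_assoc, huu, hu'u', hr1, hr2, hr3, hr4, hinvu, hinvu']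
    have hcard : Nat.card N ≤ 4 * Nat.card (⊥ : Subgroup Γ) := by
      rw [Subgroup.card_bot, mul_one]
      have hmem : ∀ n : N, (n : Γ) ∈ ({1, u, u', u * u'} : Finset Γ) := by
        intro n
        rcases hNelts n n.2 with h | h | h | h <;> simp [h]
      have hinj : Function.Injective
          (fun n : N => (⟨(n : Γ), hmem n⟩ : ({1, u, u', u * u'} : Finset Γ))) := by
        intro n m hnm
        have h0 := congrArg Subtype.val hnm
        exact Subtype.ext h0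
      have h1 := Nat.card_le_card_of_injective _ hinj
      rw [Nat.card_eq_fintype_card (α := ↥({1, u, u', u * u'} : Finset Γ)),
        Fintype.card_coe] at h1
      exact h1.trans Finset.card_le_four
    exact Cfsg.Agent.Helper1.s4_of_module N ⊥ bot_le
      (fun n hn => by have h0 := hVexp n (hNV hn); rwa [pow_two] at h0) hcard x a
      (hnorm_of x hxS) (hnorm_of a haS)
      (fun t ht => by rw [Subgroup.mem_bot.mp ht]; simp) 3 ⟨1, rfl⟩
      (hcen_of _ (hgenfix _ hx3u hx3u')) hax haa u huN (by rw [hxu]; exact hne)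
  · -- the case `p` odd
    obtain ⟨i, hi⟩ := cn_gen_of_prime p u c hup hu1 hcU hc1 u (Subgroup.mem_zpowers u)
    obtain ⟨j, hj⟩ := cn_gen_of_prime p u' d hu'p hu'1 hdU hd1 u'⁻¹
      (Subgroup.inv_mem _ (Subgroup.mem_zpowers u'))
    obtain ⟨s₁, hs₁⟩ : ∃ s₁ : Γ, s₁ = a ^ i := ⟨_, rfl⟩
    obtain ⟨s₂, hs₂⟩ : ∃ s₂ : Γ, s₂ = a' ^ j := ⟨_, rfl⟩
    have h11 : s₁ * u * s₁⁻¹ = u := by
      rw [hs₁, hu, ((Commute.refl a).pow_pow i p).eq, mul_inv_cancel_right]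
    have h12 : s₁ * u' * s₁⁻¹ = u * u' := by
      have h0 := Cfsg.Agent.Helper1.s4_conj_pow_of_comm a c u' hau'c hacc i
      rw [hs₁, h0, hi]
    have h21 : s₂ * u * s₂⁻¹ = u'⁻¹ * u := by
      have h0 := Cfsg.Agent.Helper1.s4_conj_pow_of_comm a' d u ha'ud ha'dd j
      rw [hs₂, h0, hj]
    have h22 : s₂ * u' * s₂⁻¹ = u' := by
      rw [hs₂, hu'pow, ((Commute.refl a').pow_pow j p).eq, mul_inv_cancel_right]
    obtain ⟨w, hw⟩ : ∃ w : Γ, w = s₁ * s₂ * s₁ := ⟨_, rfl⟩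
    have hw1 : w * u * w⁻¹ = u'⁻¹ := by
      rw [hw]
      calc s₁ * s₂ * s₁ * u * (s₁ * s₂ * s₁)⁻¹
          = s₁ * (s₂ * (s₁ * u * s₁⁻¹) * s₂⁻¹) * s₁⁻¹ := by group
        _ = s₁ * (u'⁻¹ * u) * s₁⁻¹ := by rw [h11, h21]
        _ = (s₁ * u' * s₁⁻¹)⁻¹ * (s₁ * u * s₁⁻¹) := by group
        _ = u'⁻¹ := by rw [h12, h11]; group
    have hw2 : w * u' * w⁻¹ = u := by
      rw [hw]
      calc s₁ * s₂ * s₁ * u' * (s₁ * s₂ * s₁)⁻¹
          = s₁ * (s₂ * (s₁ * u' * s₁⁻¹) * s₂⁻¹) * s₁⁻¹ := by group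
        _ = s₁ * (s₂ * (u * u') * s₂⁻¹) * s₁⁻¹ := by rw [h12]
        _ = s₁ * ((s₂ * u * s₂⁻¹) * (s₂ * u' * s₂⁻¹)) * s₁⁻¹ := by group
        _ = s₁ * (u'⁻¹ * u * u') * s₁⁻¹ := by rw [h21, h22]
        _ = s₁ * u * s₁⁻¹ := by rw [mul_assoc u'⁻¹ u u', huu'comm, inv_mul_cancel_left]
        _ = u := h11
    obtain ⟨z, hz⟩ : ∃ z : Γ, z = w * w := ⟨_, rfl⟩
    have hz1 : z * u * z⁻¹ = u⁻¹ := by
      rw [hz]
      calc w * w * u * (w * w)⁻¹ = w * (w * u * w⁻¹) * w⁻¹ := by group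
        _ = (w * u' * w⁻¹)⁻¹ := by rw [hw1]; group
        _ = u⁻¹ := by rw [hw2]
    have hz2 : z * u' * z⁻¹ = u'⁻¹ := by
      rw [hz]
      calc w * w * u' * (w * w)⁻¹ = w * (w * u' * w⁻¹) * w⁻¹ := by group
        _ = w * u * w⁻¹ := by rw [hw2]
        _ = u'⁻¹ := hw1
    have hzinv : ∀ n ∈ N, z * n * z⁻¹ = n⁻¹ := by
      rw [hN]
      refine cn_conj_inv_closure _ z ?_ ?_
      · rw [← hN]; exact hNcomm
      · intro x hx
        rcases Set.mem_insert_iff.mp hx with h | h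
        · rw [h]; exact hz1
        · rw [Set.mem_singleton_iff.mp h]; exact hz2
    have hs₁S : s₁ ∈ cnStab V N := by rw [hs₁]; exact (cnStab V N).pow_mem haS i
    have hs₂S : s₂ ∈ cnStab V N := by rw [hs₂]; exact (cnStab V N).pow_mem ha'S j
    have hwS : w ∈ cnStab V N := by
      rw [hw]; exact (cnStab V N).mul_mem ((cnStab V N).mul_mem hs₁S hs₂S) hs₁S
    have hzS : z ∈ cnStab V N := by rw [hz]; exact (cnStab V N).mul_mem hwS hwS
    obtain ⟨c₀, hc₀⟩ : ∃ c₀ : Γ, c₀ = z * a * z⁻¹ * a⁻¹ := ⟨_, rfl⟩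
    have hc₀S : c₀ ∈ cnStab V N := by
      rw [hc₀]
      exact (cnStab V N).mul_mem ((cnStab V N).mul_mem ((cnStab V N).mul_mem hzS haS)
        ((cnStab V N).inv_mem hzS)) ((cnStab V N).inv_mem haS)
    have hc₀cen : ∀ n ∈ N, c₀ * n * c₀⁻¹ = n := by
      intro n hn
      have hn1 : a⁻¹ * n * a ∈ N := (cn_mem_stab.mp haS).2.1 n hn
      have h1 : z⁻¹ * (a⁻¹ * n * a) * z = (a⁻¹ * n * a)⁻¹ := by
        have h0 := hzinv _ (N.inv_mem hn1)
        rw [inv_inv] at h0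
        calc z⁻¹ * (a⁻¹ * n * a) * z = z⁻¹ * (z * (a⁻¹ * n * a)⁻¹ * z⁻¹) * z := by rw [h0]
          _ = (a⁻¹ * n * a)⁻¹ := by group
      rw [hc₀]
      calc z * a * z⁻¹ * a⁻¹ * n * (z * a * z⁻¹ * a⁻¹)⁻¹
          = z * (a * (z⁻¹ * (a⁻¹ * n * a) * z) * a⁻¹) * z⁻¹ := by group
        _ = z * (a * (a⁻¹ * n * a)⁻¹ * a⁻¹) * z⁻¹ := by rw [h1]
        _ = z * n⁻¹ * z⁻¹ := by group
        _ = n := by rw [hzinv _ (N.inv_mem hn), inv_inv]
    have hc₀p : c₀ ^ p ∈ V := hstab2 c₀ hc₀S hc₀cen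
    have hπc₀K : π c₀ ∈ Kb := by
      obtain ⟨ρ, hρ⟩ : ∃ ρ : Γ →* (Γ ⧸ Cfsg.pCore p Γ) ⧸ Kb,
          ρ = (QuotientGroup.mk' Kb).comp π := ⟨_, rfl⟩
      have hρy : ρ y = 1 := by
        rw [hρ]; exact (QuotientGroup.eq_one_iff (π y)).mpr hkb
      have hρa' : ρ a' = ρ a := by rw [ha']; simp [map_mul, hρy]
      have hcs₁ : Commute (ρ s₁) (ρ a) := by
        rw [hs₁, map_pow]; exact (Commute.refl _).pow_left i
      have hcs₂ : Commute (ρ s₂) (ρ a) := by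
        rw [hs₂, map_pow, hρa']; exact (Commute.refl _).pow_left j
      have hcw : Commute (ρ w) (ρ a) := by
        rw [hw, map_mul, map_mul]; exact (hcs₁.mul_left hcs₂).mul_left hcs₁
      have hcz : Commute (ρ z) (ρ a) := by rw [hz, map_mul]; exact hcw.mul_left hcw
      have h1 : ρ c₀ = 1 := by
        rw [hc₀, map_mul, map_mul, map_mul, map_inv, map_inv, hcz.eq]; group
      rw [hρ] at h1
      exact (QuotientGroup.eq_one_iff (π c₀)).mp h1
    have hπc₀ : π c₀ = 1 := by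
      have h1 : π c₀ ^ p = 1 := by rw [← map_pow]; exact (hπker _).mpr hc₀p
      exact cn_eq_one_of_pow_coprime (cn_pow_card_of_mem Kb hπc₀K) h1 hKbcop
    have hc₀V : c₀ ∈ V := (hπker c₀).mp hπc₀
    have hza : z * a * z⁻¹ = c₀ * a := by rw [hc₀]; group
    obtain ⟨e, he⟩ : ∃ e : Γ, e = a * c₀ * a⁻¹ * c₀⁻¹ := ⟨_, rfl⟩
    have heU : e ∈ Subgroup.zpowers u := by rw [he]; exact hA1 c₀ hc₀V
    have heV : e ∈ V := hNV (hzuN heU)
    have he1 : a * c₀ * a⁻¹ = e * c₀ := by rw [he]; group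
    have he2 : a * e * a⁻¹ = e := by
      obtain ⟨k, hk⟩ := Subgroup.mem_zpowers_iff.mp heU
      rw [← hk, ← conj_zpow, hcomm_a_u]
    have he3 : e * c₀ = c₀ * e := hVab e heV c₀ hc₀V
    have hpow := cn_pow_coset a c₀ e he1 he2 he3 p
    have hdvd : p ∣ p.choose 2 :=
      hpp.dvd_choose_self (by norm_num) (lt_of_le_of_ne hpp.two_le (Ne.symm hp2))
    obtain ⟨m, hm⟩ := hdvd
    rw [hVexp c₀ hc₀V, hm, pow_mul, hVexp e heV, one_pow, one_mul, one_mul, ← hu] at hpow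
    have h2 : (z * a * z⁻¹) ^ p = u⁻¹ := by rw [conj_pow, ← hu, hz1]
    rw [hza, hpow] at h2
    have h3 : u ^ 2 = 1 := by
      have h4 : u * u = u⁻¹ * u := by rw [← h2]
      rw [pow_two, h4, inv_mul_cancel]
    apply hu1
    exact cn_eq_one_of_pow_coprime h3 hup
      ((Nat.coprime_primes Nat.prime_two hpp).mpr (Ne.symm hp2))

/-- The configuration in a group with trivial `p'`-core. -/
theorem cn_hcore {H : Type u} [Group H] [Finite H] (p : ℕ) [hp : Fact p.Prime]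
    (hsol : Cfsg.IsPSolvable p H) (hO : Cfsg.pPrimeCore p H = ⊥)
    (a : H) (haQ : a ∉ Cfsg.pCore p H) (hap : a ^ p ∈ Cfsg.pCore p H)
    (hnorm : ∀ q ∈ Cfsg.pCore p H, q * a * q⁻¹ ∈ Subgroup.zpowers a)
    (hgood : p ≠ 2 ∨ ¬ Cfsg.Involves (Equiv.Perm (Fin 4)) H) : False := by
  classical
  have hC := Cfsg.Agent.Helper20.PLen.centralizer_pCore_le_of_psolvable p hsol hO
  obtain ⟨Q, hQ⟩ : ∃ Q : Subgroup H, Q = Cfsg.pCore p H := ⟨_, rfl⟩
  rw [← hQ] at hC haQ hap hnorm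
  have hQn : Q.Normal := by rw [hQ]; infer_instance
  have hQp : IsPGroup p Q := by rw [hQ]; exact Cfsg.Agent.Helper9.pCore_isPGroup p
  haveI := hQn
  obtain ⟨Φ, hΦ⟩ : ∃ Φ : Subgroup H, Φ = (frattini ↥Q).map Q.subtype := ⟨_, rfl⟩
  have hΦn : Φ.Normal := by rw [hΦ]; infer_instance
  have hΦQ : Φ ≤ Q := by rw [hΦ]; exact Subgroup.map_subtype_le _
  have hΦp : IsPGroup p Φ := hQp.to_le hΦQ
  have hfr1 : ∀ x ∈ Q, ∀ y ∈ Q, x * y * x⁻¹ * y⁻¹ ∈ Φ := by
    intro x hx y hy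
    rw [hΦ]
    refine Subgroup.mem_map.mpr
      ⟨(⟨x, hx⟩ : Q) * ⟨y, hy⟩ * (⟨x, hx⟩ : Q)⁻¹ * (⟨y, hy⟩ : Q)⁻¹, ?_, rfl⟩
    rw [Cfsg.Agent.Helper1.mem_frattini_iff]
    intro M hM
    exact (Cfsg.Agent.Helper1.coatom_pgroup p hQp M hM).2.1 _ _
  have hfr2 : ∀ x ∈ Q, x ^ p ∈ Φ := by
    intro x hx
    rw [hΦ]
    refine Subgroup.mem_map.mpr ⟨(⟨x, hx⟩ : Q) ^ p, ?_, rfl⟩
    rw [Cfsg.Agent.Helper1.mem_frattini_iff]
    intro M hM
    exact (Cfsg.Agent.Helper1.coatom_pgroup p hQp M hM).2.2 _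
  obtain ⟨π, hπ⟩ : ∃ π : H →* H ⧸ Φ, π = QuotientGroup.mk' Φ := ⟨_, rfl⟩
  have hπs : Function.Surjective π := by rw [hπ]; exact QuotientGroup.mk'_surjective _
  have hπk : ∀ x : H, π x = 1 ↔ x ∈ Φ := by
    intro x; rw [hπ]; exact QuotientGroup.eq_one_iff x
  have hker : π.ker = Φ := by rw [hπ]; exact QuotientGroup.ker_mk' Φ
  have hcore : Cfsg.pCore p (H ⧸ Φ) = Q.map π := by
    apply le_antisymm
    · have h1 : IsPGroup p ↥((Cfsg.pCore p (H ⧸ Φ)).comap π) := by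
        apply IsPGroup.comap_of_ker_isPGroup (Cfsg.Agent.Helper9.pCore_isPGroup p)
        rw [hker]; exact hΦp
      have h2 : (Cfsg.pCore p (H ⧸ Φ)).comap π ≤ Q := by
        rw [hQ]
        exact Cfsg.Agent.Helper9.le_pCore (Subgroup.Normal.comap inferInstance _) h1
      calc Cfsg.pCore p (H ⧸ Φ) = ((Cfsg.pCore p (H ⧸ Φ)).comap π).map π :=
            (Subgroup.map_comap_eq_self_of_surjective hπs _).symm
        _ ≤ Q.map π := Subgroup.map_mono h2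
    · exact Cfsg.Agent.Helper9.le_pCore (hQn.map π hπs) (hQp.map π)
  have hπQ : ∀ x : H, π x ∈ Q.map π ↔ x ∈ Q := by
    intro x
    constructor
    · intro h
      obtain ⟨q, hq, hqx⟩ := Subgroup.mem_map.mp h
      have h1 : π (q⁻¹ * x) = 1 := by rw [map_mul, map_inv, hqx, inv_mul_cancel]
      have h2 : q⁻¹ * x ∈ Q := hΦQ ((hπk _).mp h1)
      have e : x = q * (q⁻¹ * x) := by group
      rw [e]; exact Q.mul_mem hq h2
    · intro h; exact Subgroup.mem_map_of_mem π h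
  apply cn_core (Γ := H ⧸ Φ) p (Cfsg.Agent.Helper20.isPSolvable_quotient p hsol Φ)
    ?_ ?_ ?_ (π a) ?_ ?_ ?_ ?_
  · rw [hcore]
    intro v hv w hw
    obtain ⟨x, hx, rfl⟩ := Subgroup.mem_map.mp hv
    obtain ⟨y, hy, rfl⟩ := Subgroup.mem_map.mp hw
    have h1 : π (x * y * x⁻¹ * y⁻¹) = 1 := (hπk _).mpr (hfr1 x hx y hy)
    simp only [map_mul, map_inv] at h1
    calc π x * π y = (π x * π y * (π x)⁻¹ * (π y)⁻¹) * (π y * π x) := by group
      _ = π y * π x := by rw [h1, one_mul]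
  · rw [hcore]
    intro v hv
    obtain ⟨x, hx, rfl⟩ := Subgroup.mem_map.mp hv
    rw [← map_pow]; exact (hπk _).mpr (hfr2 x hx)
  · rw [hcore]
    intro c hc
    obtain ⟨k, rfl⟩ := hπs c
    rw [hπQ]
    obtain ⟨K, hK⟩ : ∃ K : Subgroup H, K = (Subgroup.centralizer
        ((Q.map π : Subgroup (H ⧸ Φ)) : Set (H ⧸ Φ))).comap π := ⟨_, rfl⟩
    have hKn : K.Normal := by
      rw [hK]
      haveI : (Q.map π).Normal := hQn.map π hπs
      exact Subgroup.Normal.comap inferInstance _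
    have hKp : IsPGroup p K := by
      apply Cfsg.Agent.Helper11.isPGroup_of_frattini_action Q hQn hQp hC K
      intro k' hk' q hq
      rw [← hΦ, ← hπk]
      rw [hK] at hk'
      have h1 := Subgroup.mem_centralizer_iff.mp (Subgroup.mem_comap.mp hk') (π q)
        (Subgroup.mem_map_of_mem π hq)
      simp only [map_mul, map_inv]
      calc (π q)⁻¹ * π k' * π q * (π k')⁻¹ = (π q)⁻¹ * (π k' * π q) * (π k')⁻¹ := by group
        _ = (π q)⁻¹ * (π q * π k') * (π k')⁻¹ := by rw [h1]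
        _ = 1 := by group
    have hkK : k ∈ K := by rw [hK]; exact Subgroup.mem_comap.mpr hc
    have h0 := Cfsg.Agent.Helper9.le_pCore hKn hKp hkK
    rw [← hQ] at h0; exact h0
  · rw [hcore, hπQ]; exact haQ
  · rw [hcore, ← map_pow, hπQ]; exact hap
  · rw [hcore]
    intro v hv
    obtain ⟨q, hq, rfl⟩ := Subgroup.mem_map.mp hv
    obtain ⟨k, hk⟩ := Subgroup.mem_zpowers_iff.mp (hnorm q hq)
    refine Subgroup.mem_zpowers_iff.mpr ⟨k, ?_⟩
    rw [← map_zpow, hk, map_mul, map_mul, map_inv]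
  · rcases hgood with h | h
    · exact Or.inl h
    · exact Or.inr (fun h2 => h (Cfsg.Agent.Helper1.involves_of_surjective_hom π hπs h2))

end Cfsg.Agent.Lead.CN
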