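import Mathlib
import Cfsg.Agent.Lead.Transfer

set_option autoImplicit false

namespace Cfsg.Agent.Lead

open Subgroup

/-- `P` is abelian and its elements of order dividing two are `1, s, t, s * t`. -/
def FourInv {G : Type*} [Group G] (P : Subgroup G) (s t : G) : Prop :=
  (∀ x ∈ P, ∀ y ∈ P, x * y = y * x) ∧ s ∈ P ∧ t ∈ P ∧ s ≠ 1 ∧ t ≠ 1 ∧ s ≠ t ∧ s ^ 2 = 1 ∧
    t ^ 2 = 1 ∧ ∀ u ∈ P, u ^ 2 = 1 → u = 1 ∨ u = s ∨ u = t ∨ u = s * t

theorem FourInv.third {G : Type*} [Group G] {P : Subgroup G} {s t : G} (h : FourInv P s t)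
    (a u w : G) (ha : a ∈ P) (hu : u ∈ P) (hw : w ∈ P) (ha2 : a ^ 2 = 1) (hu2 : u ^ 2 = 1)
    (hw2 : w ^ 2 = 1) (ha1 : a ≠ 1) (hu1 : u ≠ 1) (hw1 : w ≠ 1) (hau : a ≠ u) (hwa : w ≠ a)
    (hwu : w ≠ u) : w = a * u := by
  obtain ⟨hcomm, hs, ht, hs1, ht1, hst, hs2, ht2, hall⟩ := h
  have hss : s * s = 1 := by rw [← pow_two]; exact hs2
  have htt : t * t = 1 := by rw [← pow_two]; exact ht2
  have hts : t * s = s * t := hcomm t ht s hs
  have hss' : ∀ x : G, s * (s * x) = x := fun x => by rw [← mul_assoc, hss, one_mul]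
  have htt' : ∀ x : G, t * (t * x) = x := fun x => by rw [← mul_assoc, htt, one_mul]
  have hts' : ∀ x : G, t * (s * x) = s * (t * x) := fun x => by rw [← mul_assoc, hts, mul_assoc]
  have hA := hall a ha ha2
  have hU := hall u hu hu2
  have hW := hall w hw hw2
  rcases hA with hA | hA | hA | hA <;> rcases hU with hU | hU | hU | hU <;>
    rcases hW with hW | hW | hW | hW <;>
    first
      | exact absurd hA ha1
      | exact absurd hU hu1
      | exact absurd hW hw1
      | exact absurd (hA.trans hU.symm) hau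
      | exact absurd (hW.trans hA.symm) hwa
      | exact absurd (hW.trans hU.symm) hwu
      | (rw [hA, hU, hW]; first | done | simp only [mul_assoc, hss, htt, hts, hss', htt', hts', mul_one, one_mul])

theorem FourInv.odd_centralizes {G : Type*} [Group G] [Finite G] {P : Sylow 2 G} {s t : G}
    (h : FourInv (P : Subgroup G) s t) (g : G)
    (hg : g ∈ normalizer ((P : Subgroup G) : Set G)) (hodd : Odd (orderOf g))
    (a : G) (ha : a ∈ (P : Subgroup G)) (ha1 : a ≠ 1) (ha2 : a ^ 2 = 1) (hga : g * a = a * g) :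
    g ∈ centralizer ((P : Subgroup G) : Set G) := by
  have hcomm := h.1
  have hconj : ∀ x ∈ (P : Subgroup G), g * x * g⁻¹ ∈ (P : Subgroup G) := fun x hx =>
    (mem_normalizer_iff.mp hg x).mp hx
  obtain ⟨j, hj⟩ := hodd
  have step1 : ∀ u ∈ (P : Subgroup G), u ^ 2 = 1 → g * u = u * g := by
    intro u hu hu2
    by_cases hu1 : u = 1
    · rw [hu1, mul_one, one_mul]
    by_cases hua : u = a
    · rw [hua]; exact hga
    have hu'P := hconj u hu
    have hu'2 : (g * u * g⁻¹) ^ 2 = 1 := by rw [conj_pow, hu2, mul_one, mul_inv_cancel]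
    have hback : g⁻¹ * (g * u * g⁻¹) * g = u := by group
    have hu'1 : g * u * g⁻¹ ≠ 1 := by
      intro h1
      apply hu1
      rw [← hback, h1]; group
    have hu'a : g * u * g⁻¹ ≠ a := by
      intro h1
      apply hua
      rw [← hback, h1, mul_assoc, ← hga]; group
    by_cases hfix : g * u * g⁻¹ = u
    · calc g * u = g * u * g⁻¹ * g := by group
        _ = u * g := by rw [hfix]
    · have h3 : g * u * g⁻¹ = a * u :=
        h.third a u (g * u * g⁻¹) ha hu hu'P ha2 hu2 hu'2 ha1 hu1 hu'1 (Ne.symm hua) hu'a hfix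
      have h4 : g ^ 2 * u = u * g ^ 2 := by
        have h40 : g * (g * u * g⁻¹) * g⁻¹ = u := by
          rw [h3]
          calc g * (a * u) * g⁻¹ = (g * a) * (u * g⁻¹) := by group
            _ = a * g * (u * g⁻¹) := by rw [hga]
            _ = a * (g * u * g⁻¹) := by group
            _ = a * (a * u) := by rw [h3]
            _ = u := by rw [← mul_assoc, ← pow_two, ha2, one_mul]
        have h41 : g * g * u = u * (g * g) := by
          calc g * g * u = g * (g * u * g⁻¹) * g⁻¹ * (g * g) := by group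
            _ = u * (g * g) := by rw [h40]
        rw [pow_two]; exact h41
      have h5 : (g ^ 2) ^ (j + 1) = g := by
        rw [← pow_mul, show 2 * (j + 1) = orderOf g + 1 by omega, pow_succ, pow_orderOf_eq_one,
          one_mul]
      have c : Commute (g ^ 2) u := h4
      have c2 := c.pow_left (j + 1)
      rw [h5] at c2
      exact c2.eq
  have step2 : ∀ k : ℕ, ∀ x ∈ (P : Subgroup G), x ^ 2 ^ k = 1 → g * x = x * g := by
    intro k
    induction k with
    | zero => intro x _ hx; rw [pow_zero, pow_one] at hx; rw [hx, mul_one, one_mul]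
    | succ k ih =>
      intro x hx hxk
      have hx2 : g * x ^ 2 = x ^ 2 * g :=
        ih (x ^ 2) (pow_mem hx 2) (by rw [← pow_mul, ← pow_succ']; exact hxk)
      obtain ⟨v, hv⟩ : ∃ v : G, v = x⁻¹ * (g * x * g⁻¹) := ⟨_, rfl⟩
      have hvP : v ∈ (P : Subgroup G) := hv ▸ mul_mem (inv_mem hx) (hconj x hx)
      have hy2 : (g * x * g⁻¹) ^ 2 = x ^ 2 := by
        rw [conj_pow, hx2]; group
      have hv2 : v ^ 2 = 1 := by
        have hc : Commute x⁻¹ (g * x * g⁻¹) := hcomm _ (inv_mem hx) _ (hconj x hx)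
        rw [hv, hc.mul_pow, hy2, inv_pow, inv_mul_cancel]
      have hgv : g * v = v * g := step1 v hvP hv2
      have hxv : g * x * g⁻¹ = x * v := by rw [hv]; group
      have hpow : ∀ i : ℕ, g ^ i * x * (g ^ i)⁻¹ = x * v ^ i := by
        intro i
        induction i with
        | zero => simp
        | succ i ih2 =>
          have cv : Commute g (v ^ i) := (show Commute g v from hgv).pow_right i
          calc g ^ (i + 1) * x * (g ^ (i + 1))⁻¹ = g * (g ^ i * x * (g ^ i)⁻¹) * g⁻¹ := by
                rw [pow_succ']; group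
            _ = g * (x * v ^ i) * g⁻¹ := by rw [ih2]
            _ = (g * x * g⁻¹) * (g * v ^ i) * g⁻¹ := by group
            _ = (x * v) * (v ^ i * g) * g⁻¹ := by rw [hxv, cv.eq]
            _ = x * v ^ (i + 1) := by rw [pow_succ']; group
      have h6 := hpow (orderOf g)
      rw [pow_orderOf_eq_one, one_mul, inv_one, mul_one] at h6
      have h7 : v ^ orderOf g = 1 := by
        have h70 : x * v ^ orderOf g = x * 1 := by rw [mul_one]; exact h6.symm
        exact mul_left_cancel h70
      have h8 : v = 1 := by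
        rw [hj, pow_succ, pow_mul, hv2, one_pow, one_mul] at h7
        exact h7
      rw [h8, mul_one] at hxv
      calc g * x = g * x * g⁻¹ * g := by group
        _ = x * g := by rw [hxv]
  rw [mem_centralizer_iff]
  intro x hx
  obtain ⟨k, hk⟩ := P.2 ⟨x, hx⟩
  have hk' : x ^ 2 ^ k = 1 := by
    have h2 := congrArg Subtype.val hk
    rwa [Subgroup.coe_pow, Subgroup.coe_one] at h2
  exact (step2 k x hx hk').symm

/-- An element of the normaliser of `P` fixing an involution of `P` centralises `P`. -/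
theorem FourInv.centralizes {G : Type*} [Group G] [Finite G] {P : Sylow 2 G} {s t : G}
    (h : FourInv (P : Subgroup G) s t) (n : G)
    (hn : n ∈ normalizer ((P : Subgroup G) : Set G))
    (a : G) (ha : a ∈ (P : Subgroup G)) (ha1 : a ≠ 1) (ha2 : a ^ 2 = 1) (hna : n * a = a * n) :
    n ∈ centralizer ((P : Subgroup G) : Set G) := by
  obtain ⟨c, b, k, hc, hb, hncb, hck, hbodd⟩ := exists_p_decomp 2 n
  have hzN : zpowers n ≤ normalizer ((P : Subgroup G) : Set G) := (zpowers_le).mpr hn
  have hzC : zpowers n ≤ centralizer ({a} : Set G) :=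
    zpowers_le.mpr (mem_centralizer_singleton_iff.mpr hna)
  have hba : b * a = a * b := mem_centralizer_singleton_iff.mp (hzC hb)
  have hcP : c ∈ (P : Subgroup G) := mem_sylow_of_mem_normalizer P c k hck (hzN hc)
  have hcC : c ∈ centralizer ((P : Subgroup G) : Set G) := by
    rw [mem_centralizer_iff]
    intro x hx
    exact h.1 x hx c hcP
  have hbC : b ∈ centralizer ((P : Subgroup G) : Set G) :=
    h.odd_centralizes b (hzN hb) hbodd.odd_of_right a ha ha1 ha2 hba
  rw [hncb]
  exact mul_mem hcC hbC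

theorem fourInv_of_equiv {G : Type*} [Group G] (P : Subgroup G) (m : ℕ) (hm : 1 ≤ m)
    (e : P ≃* Multiplicative (ZMod (2 ^ m) × ZMod (2 ^ m))) : ∃ s t : G, FourInv P s t := by
  have hne : NeZero (2 ^ m) := ⟨by positivity⟩
  have hpow : 2 ^ (m - 1) + 2 ^ (m - 1) = 2 ^ m := by
    obtain ⟨k, rfl⟩ : ∃ k, m = k + 1 := ⟨m - 1, by omega⟩
    rw [Nat.add_sub_cancel, pow_succ]; ring
  obtain ⟨h, hh⟩ : ∃ h : ZMod (2 ^ m), h = ((2 ^ (m - 1) : ℕ) : ZMod (2 ^ m)) := ⟨_, rfl⟩
  have hh0 : h ≠ 0 := by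
    intro h0
    rw [hh, ZMod.natCast_eq_zero_iff] at h0
    have h1 := Nat.le_of_dvd (by positivity) h0
    have h2 : 0 < 2 ^ (m - 1) := by positivity
    omega
  have hh2 : h + h = 0 := by
    rw [hh, ← Nat.cast_add, hpow]; exact ZMod.natCast_self _
  have hx : ∀ x : ZMod (2 ^ m), x + x = 0 → x = 0 ∨ x = h := by
    intro x hx
    have hv : ((x.val + x.val : ℕ) : ZMod (2 ^ m)) = 0 := by
      rw [Nat.cast_add, ZMod.natCast_zmod_val]; exact hx
    rw [ZMod.natCast_eq_zero_iff] at hv
    obtain ⟨c, hc⟩ := hv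
    have hlt := ZMod.val_lt x
    have hc2 : c < 2 := by
      by_contra hcon
      have h3 : 2 ^ m * 2 ≤ 2 ^ m * c := Nat.mul_le_mul_left _ (by omega)
      omega
    interval_cases c
    · left
      have h4 : x.val = 0 := by omega
      exact (ZMod.val_eq_zero x).mp h4
    · right
      have h4 : x.val = 2 ^ (m - 1) := by omega
      rw [hh, ← h4, ZMod.natCast_zmod_val]
  have hcomm : ∀ x ∈ P, ∀ y ∈ P, x * y = y * x := by
    intro x hx y hy
    have h1 : (⟨x, hx⟩ : P) * ⟨y, hy⟩ = ⟨y, hy⟩ * ⟨x, hx⟩ := by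
      apply e.injective
      rw [map_mul, map_mul, mul_comm]
    exact congrArg Subtype.val h1
  obtain ⟨a, ha⟩ : ∃ a : Multiplicative (ZMod (2 ^ m) × ZMod (2 ^ m)),
    a = Multiplicative.ofAdd (h, 0) := ⟨_, rfl⟩
  obtain ⟨b, hb⟩ : ∃ b : Multiplicative (ZMod (2 ^ m) × ZMod (2 ^ m)),
    b = Multiplicative.ofAdd (0, h) := ⟨_, rfl⟩
  have ha1 : a ≠ 1 := by
    intro h1
    rw [ha] at h1
    have h2 := congrArg Multiplicative.toAdd h1
    simp at h2
    exact hh0 h2
  have hb1 : b ≠ 1 := by
    intro h1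
    rw [hb] at h1
    have h2 := congrArg Multiplicative.toAdd h1
    simp at h2
    exact hh0 h2
  have hab : a ≠ b := by
    intro h1
    rw [ha, hb] at h1
    have h2 := congrArg Multiplicative.toAdd h1
    simp at h2
    exact hh0 h2.1
  have ha2 : a ^ 2 = 1 := by
    rw [ha, ← ofAdd_nsmul, two_nsmul]
    simp [hh2]
  have hb2 : b ^ 2 = 1 := by
    rw [hb, ← ofAdd_nsmul, two_nsmul]
    simp [hh2]
  have hall : ∀ w : Multiplicative (ZMod (2 ^ m) × ZMod (2 ^ m)), w ^ 2 = 1 →
      w = 1 ∨ w = a ∨ w = b ∨ w = a * b := by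
    intro w hw
    have h2 : (2 : ℕ) • Multiplicative.toAdd w = 0 := by
      rw [← toAdd_pow, hw, toAdd_one]
    rw [two_nsmul] at h2
    have h3 := congrArg Prod.fst h2
    have h4 := congrArg Prod.snd h2
    simp only [Prod.fst_add, Prod.snd_add, Prod.fst_zero, Prod.snd_zero] at h3 h4
    have hw' : w = Multiplicative.ofAdd ((Multiplicative.toAdd w).1, (Multiplicative.toAdd w).2) :=
      rfl
    rcases hx _ h3 with h5 | h5 <;> rcases hx _ h4 with h6 | h6
    · left; rw [hw', h5, h6]; rfl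
    · right; right; left; rw [hw', h5, h6, hb]
    · right; left; rw [hw', h5, h6, ha]
    · right; right; right
      rw [hw', h5, h6, ha, hb, ← ofAdd_add]
      simp
  refine ⟨(e.symm a : G), (e.symm b : G), hcomm, (e.symm a).2, (e.symm b).2, ?_, ?_, ?_, ?_, ?_, ?_⟩
  · intro h1
    apply ha1
    have h2 : e.symm a = 1 := Subtype.ext h1
    have h3 := congrArg e h2
    rwa [e.apply_symm_apply, map_one] at h3
  · intro h1
    apply hb1
    have h2 : e.symm b = 1 := Subtype.ext h1
    have h3 := congrArg e h2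
    rwa [e.apply_symm_apply, map_one] at h3
  · intro h1
    apply hab
    have h2 : e.symm a = e.symm b := Subtype.ext h1
    exact e.symm.injective h2
  · rw [← Subgroup.coe_pow, ← map_pow, ha2, map_one, Subgroup.coe_one]
  · rw [← Subgroup.coe_pow, ← map_pow, hb2, map_one, Subgroup.coe_one]
  · intro u hu hu2
    have h1 : (e ⟨u, hu⟩) ^ 2 = 1 := by
      rw [← map_pow]
      have h2 : (⟨u, hu⟩ : P) ^ 2 = 1 := Subtype.ext (by rw [Subgroup.coe_pow, Subgroup.coe_one]; exact hu2)
      rw [h2, map_one]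
    have hu_eq : (⟨u, hu⟩ : P) = e.symm (e ⟨u, hu⟩) := (e.symm_apply_apply _).symm
    rcases hall _ h1 with h2 | h2 | h2 | h2
    · left
      rw [h2, map_one] at hu_eq
      exact congrArg Subtype.val hu_eq
    · right; left
      rw [h2] at hu_eq
      exact congrArg Subtype.val hu_eq
    · right; right; left
      rw [h2] at hu_eq
      exact congrArg Subtype.val hu_eq
    · right; right; right
      rw [h2, map_mul] at hu_eq
      exact congrArg Subtype.val hu_eq

end Cfsg.Agent.Lead
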