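import Cfsg.Agent.Lead.Tate
import Cfsg.Agent.Lead.AbelianHall
import Cfsg.Agent.Helper1.SZ
import Cfsg.Agent.Helper1.Basic

set_option autoImplicit false
open Pointwise

namespace Cfsg.Agent.Lead

open Subgroup

theorem pResidual_pResidual (p : ℕ) (G : Type*) [Group G] :
    Cfsg.pResidual p ↥(Cfsg.pResidual p G) = ⊤ := by
  rw [eq_top_iff]
  have hle : Cfsg.pResidual p G ≤
      (Cfsg.pResidual p ↥(Cfsg.pResidual p G)).map (Cfsg.pResidual p G).subtype := by
    refine (Subgroup.closure_le _).mpr ?_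
    intro g hg
    have hgm : g ∈ Cfsg.pResidual p G := Subgroup.subset_closure hg
    refine ⟨⟨g, hgm⟩, ?_, rfl⟩
    apply Subgroup.subset_closure
    show Nat.Coprime (orderOf (⟨g, hgm⟩ : ↥(Cfsg.pResidual p G))) p
    rw [Subgroup.orderOf_mk]; exact hg
  intro x _
  obtain ⟨y, hy, hyx⟩ := hle x.2
  have hyx' : y = x := Subtype.ext hyx
  rw [← hyx']; exact hy

/-- A normal `p'`-subgroup with `p`-group quotient is a complement to every Sylow `p`-subgroup. -/
theorem isComplement'_of_normal_coprime {G : Type*} [Group G] [Finite G] {p : ℕ}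
    [hp : Fact p.Prime] (M : Subgroup G) [M.Normal] (hM : ¬ p ∣ Nat.card M)
    (hq : IsPGroup p (G ⧸ M)) (Q : Sylow p G) : M.IsComplement' (Q : Subgroup G) := by
  obtain ⟨j, hj⟩ := IsPGroup.iff_card.mp hq
  obtain ⟨n, hn⟩ := IsPGroup.iff_card.mp Q.2
  have hMp : (Nat.card M).Coprime p := ((Nat.Prime.coprime_iff_not_dvd hp.1).mpr hM).symm
  have h1 : Nat.card M * M.index = Nat.card G := Subgroup.card_mul_index M
  have h2 : Nat.card (Q : Subgroup G) * (Q : Subgroup G).index = Nat.card G :=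
    Subgroup.card_mul_index _
  rw [Subgroup.index_eq_card, hj] at h1
  have hQi : ((Q : Subgroup G).index).Coprime p :=
    ((Nat.Prime.coprime_iff_not_dvd hp.1).mpr Q.not_dvd_index).symm
  have h3 : p ^ j ∣ p ^ n := by
    have : p ^ j ∣ p ^ n * (Q : Subgroup G).index := by
      rw [← hn, h2, ← h1]; exact dvd_mul_left _ _
    exact (Nat.Coprime.pow_left j hQi.symm).dvd_of_dvd_mul_right this
  have h4 : p ^ n ∣ p ^ j := by
    have : p ^ n ∣ Nat.card M * p ^ j := by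
      rw [h1, ← h2, hn]; exact dvd_mul_right _ _
    exact (Nat.Coprime.pow_left n hMp.symm).dvd_of_dvd_mul_left this
  have h5 : p ^ j = p ^ n := Nat.dvd_antisymm h3 h4
  apply Subgroup.isComplement'_of_coprime
  · rw [hn, ← h5]; exact h1
  · rw [hn]; exact Nat.Coprime.pow_right n hMp

/-- Frattini argument for the complements of an abelian normal Sylow subgroup `Q` of a normal
subgroup `L`, when `C_Q(L) = 1`: the normaliser of a complement `H` of `Q` in `L` supplements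
`Q` and meets `L` in `H`. -/
theorem normalizer_complement {M : Type*} [Group M] [Finite M] {p : ℕ} [hp : Fact p.Prime]
    (L Q : Subgroup M) [hL : L.Normal] [hQ : Q.Normal]
    (hQL : Q ≤ L) (hab : ∀ x ∈ Q, ∀ y ∈ Q, x * y = y * x) (hQp : IsPGroup p Q)
    (hpL : ¬ p ∣ Q.relIndex L)
    (hC : ∀ q ∈ Q, (∀ l ∈ L, l * q = q * l) → q = 1) :
    ∃ H : Subgroup M, H ≤ L ∧ Nat.card H = Q.relIndex L ∧
      (∀ x ∈ normalizer ((H : Subgroup M) : Set M), x ∈ L → x ∈ H) ∧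
      (∀ m : M, ∃ q ∈ Q, ∃ r ∈ normalizer ((H : Subgroup M) : Set M), m = q * r) := by
  classical
  have hcomm : IsMulCommutative ↥(Q.subgroupOf L) := ⟨⟨fun a b => by
    apply Subtype.ext
    apply Subtype.ext
    exact hab _ (Subgroup.mem_subgroupOf.mp a.2) _ (Subgroup.mem_subgroupOf.mp b.2)⟩⟩
  have hcardQ' : Nat.card ↥(Q.subgroupOf L) = Nat.card Q :=
    Nat.card_congr (Subgroup.subgroupOfEquivOfLe hQL).toEquiv
  have hcop' : (Nat.card ↥(Q.subgroupOf L)).Coprime (Q.subgroupOf L).index := by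
    obtain ⟨k, hk⟩ := IsPGroup.iff_card.mp hQp
    rw [hcardQ', hk]
    exact Nat.Coprime.pow_left k ((Nat.Prime.coprime_iff_not_dvd hp.1).mpr hpL)
  obtain ⟨H', hH'⟩ := Subgroup.exists_right_complement'_of_coprime hcop'
  have hdisj : ∀ x : ↥L, x ∈ Q.subgroupOf L → x ∈ H' → x = 1 :=
    fun x h1 h2 => Subgroup.disjoint_def.mp hH'.disjoint h1 h2
  have hprod : ∀ l : ↥L, ∃ q ∈ Q.subgroupOf L, ∃ h ∈ H', l = q * h :=
    (Cfsg.Agent.Helper1.isComplement'_iff_elem.mp hH').2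
  have hQH : ∀ q ∈ Q, q ∈ H'.map L.subtype → q = 1 := by
    rintro q hq ⟨h, hh, rfl⟩
    have h1 := hdisj h (Subgroup.mem_subgroupOf.mpr hq) hh
    rw [h1]; rfl
  have hLdec : ∀ l ∈ L, ∃ q ∈ Q, ∃ h ∈ H'.map L.subtype, l = q * h := by
    intro l hl
    obtain ⟨q, hq, h, hh, e⟩ := hprod ⟨l, hl⟩
    exact ⟨q.1, Subgroup.mem_subgroupOf.mp hq, h.1, ⟨h, hh, rfl⟩, congrArg Subtype.val e⟩
  have hQR : ∀ q ∈ Q, q ∈ normalizer ((H'.map L.subtype : Subgroup M) : Set M) → q = 1 := by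
    intro q hq hqR
    apply hC q hq
    intro l hl
    obtain ⟨q₁, hq₁, h₁, hh₁, rfl⟩ := hLdec l hl
    have hc : q * h₁ * q⁻¹ * h₁⁻¹ = 1 := by
      apply hQH
      · have e0 : q * h₁ * q⁻¹ * h₁⁻¹ = q * (h₁ * q⁻¹ * h₁⁻¹) := by group
        rw [e0]; exact Q.mul_mem hq (hQ.conj_mem _ (Q.inv_mem hq) h₁)
      · exact mul_mem ((mem_normalizer_iff.mp hqR h₁).mp hh₁) (inv_mem hh₁)
    have hqh : q * h₁ = h₁ * q := by
      have e0 : q * h₁ = (q * h₁ * q⁻¹ * h₁⁻¹) * (h₁ * q) := by group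
      rw [e0, hc, one_mul]
    calc q₁ * h₁ * q = q₁ * (h₁ * q) := mul_assoc _ _ _
      _ = q₁ * (q * h₁) := by rw [hqh]
      _ = (q₁ * q) * h₁ := (mul_assoc _ _ _).symm
      _ = (q * q₁) * h₁ := by rw [hab q₁ hq₁ q hq]
      _ = q * (q₁ * h₁) := mul_assoc _ _ _
  refine ⟨H'.map L.subtype, ?_, ?_, ?_, ?_⟩
  · rintro _ ⟨h, -, rfl⟩; exact h.2
  · rw [Subgroup.card_map_of_injective L.subtype_injective]
    exact hH'.symm.index_eq_card.symm
  · intro x hxR hxL
    obtain ⟨q, hq, h, hh, rfl⟩ := hLdec x hxL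
    have hqR : q ∈ normalizer ((H'.map L.subtype : Subgroup M) : Set M) := by
      have e0 : q = (q * h) * h⁻¹ := by group
      rw [e0]; exact mul_mem hxR (inv_mem (le_normalizer hh))
    rw [hQR q hq hqR, one_mul]; exact hh
  · intro m
    have hK' : Subgroup.IsComplement' (Q.subgroupOf L)
        (H'.map (MulAut.conjNormal m : ↥L ≃* ↥L).toMonoidHom) := by
      apply Subgroup.isComplement'_of_coprime
      · rw [Subgroup.card_map_of_injective (MulEquiv.injective _)]; exact hH'.card_mul_card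
      · rw [Subgroup.card_map_of_injective (MulEquiv.injective _),
          ← hH'.symm.index_eq_card]
        exact hcop'
    obtain ⟨a, ha, hconj⟩ :=
      Cfsg.Agent.Helper1.sz_conj_abelian (Q.subgroupOf L) hcop' H' _ hH' hK'
    refine ⟨(a : M), Subgroup.mem_subgroupOf.mp ha, (a : M)⁻¹ * m, ?_, by group⟩
    apply mem_normalizer_fintype
    rintro _ ⟨h, hh, rfl⟩
    have h1 : (MulAut.conjNormal m : ↥L ≃* ↥L) h ∈ MulAut.conj a • H' := by
      rw [hconj]; exact Subgroup.mem_map_of_mem _ hh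
    rw [Cfsg.Agent.Helper1.mem_conj_smul] at h1
    refine ⟨_, h1, ?_⟩
    show ((a⁻¹ * (MulAut.conjNormal m : ↥L ≃* ↥L) h * a : ↥L) : M)
      = (a : M)⁻¹ * m * (h : M) * ((a : M)⁻¹ * m)⁻¹
    rw [Subgroup.coe_mul, Subgroup.coe_mul, Subgroup.coe_inv, MulAut.conjNormal_apply]
    group

/-- Splitting over a normal subgroup `N` with `p`-group quotient, given a supplement `X` in which
an abelian Sylow `p`-subgroup `Q` of `N` is normal with `C_Q(N ∩ X) = 1`. -/
theorem split_aux {G : Type*} [Group G] [Finite G] {p : ℕ} [hp : Fact p.Prime]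
    (N X Q : Subgroup G) [hNn : N.Normal] (hNp : ∀ g : G, ∃ j : ℕ, g ^ p ^ j ∈ N)
    (hXN : ∀ g : G, ∃ x ∈ X, ∃ n ∈ N, g = x * n)
    (hQN : Q ≤ N) (_hQX : Q ≤ X) (hQn : ∀ x ∈ X, ∀ q ∈ Q, x * q * x⁻¹ ∈ Q)
    (hab : ∀ x ∈ Q, ∀ y ∈ Q, x * y = y * x) (hQp : IsPGroup p Q)
    (hpL : ¬ p ∣ Q.relIndex (N ⊓ X))
    (hC : ∀ q ∈ Q, (∀ l ∈ N, l ∈ X → l * q = q * l) → q = 1) :
    ∃ K : Subgroup G, K.IsComplement' N := by
  classical
  have hQMn : (Q.subgroupOf X).Normal := ⟨fun n hn g => by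
    rw [Subgroup.mem_subgroupOf] at hn ⊢
    exact hQn g g.2 n hn⟩
  have hQL : Q.subgroupOf X ≤ N.subgroupOf X := fun x hx =>
    Subgroup.mem_subgroupOf.mpr (hQN (Subgroup.mem_subgroupOf.mp hx))
  have hab' : ∀ x ∈ Q.subgroupOf X, ∀ y ∈ Q.subgroupOf X, x * y = y * x := by
    intro x hx y hy
    apply Subtype.ext
    exact hab _ (Subgroup.mem_subgroupOf.mp hx) _ (Subgroup.mem_subgroupOf.mp hy)
  have hQp' : IsPGroup p ↥(Q.subgroupOf X) := hQp.comap_subtype
  have erel : (Q.subgroupOf X).relIndex (N.subgroupOf X) = Q.relIndex (N ⊓ X) := by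
    rw [← Subgroup.inf_subgroupOf_right N X, Subgroup.relIndex_subgroupOf inf_le_right]
  have hpL' : ¬ p ∣ (Q.subgroupOf X).relIndex (N.subgroupOf X) := by rw [erel]; exact hpL
  have hC' : ∀ q ∈ Q.subgroupOf X, (∀ l ∈ N.subgroupOf X, l * q = q * l) → q = 1 := by
    intro q hq hql
    apply Subtype.ext
    apply hC (q : G) (Subgroup.mem_subgroupOf.mp hq)
    intro l hlN hlX
    have := hql ⟨l, hlX⟩ (Subgroup.mem_subgroupOf.mpr hlN)
    exact congrArg Subtype.val this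
  obtain ⟨H, hHL, hHcard, hHR, hdec⟩ :=
    normalizer_complement (N.subgroupOf X) (Q.subgroupOf X) hQL hab' hQp' hpL' hC'
  have hpH : ¬ p ∣ Nat.card H := by rw [hHcard]; exact hpL'
  -- the image of the normaliser of `H` in `G`
  obtain ⟨RG, hRG⟩ : ∃ RG : Subgroup G,
      RG = (normalizer ((H : Subgroup ↥X) : Set ↥X)).map X.subtype := ⟨_, rfl⟩
  have hRGmem : ∀ y ∈ RG, ∃ r ∈ normalizer ((H : Subgroup ↥X) : Set ↥X), (r : G) = y := by
    intro y hy
    rw [hRG] at hy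
    exact hy
  have hN'p : ¬ p ∣ Nat.card ↥(N.subgroupOf RG) := by
    intro hdvd
    obtain ⟨x, hx⟩ := exists_prime_orderOf_dvd_card' p hdvd
    obtain ⟨r, hr, hrx⟩ := hRGmem _ x.1.2
    have hrN : r ∈ N.subgroupOf X := by
      rw [Subgroup.mem_subgroupOf, hrx]
      exact Subgroup.mem_subgroupOf.mp x.2
    have hrH : r ∈ H := hHR r hr hrN
    have hord : orderOf r = p := by
      rw [← Subgroup.orderOf_coe r, hrx, Subgroup.orderOf_coe, Subgroup.orderOf_coe]
      exact hx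
    have := Subgroup.orderOf_dvd_natCard H hrH
    rw [hord] at this
    exact hpH this
  have hq : IsPGroup p (↥RG ⧸ N.subgroupOf RG) := by
    intro y
    obtain ⟨y, rfl⟩ := QuotientGroup.mk_surjective y
    obtain ⟨j, hj⟩ := hNp (y : G)
    refine ⟨j, ?_⟩
    rw [← QuotientGroup.mk_pow]
    refine (QuotientGroup.eq_one_iff _).mpr ?_
    rw [Subgroup.mem_subgroupOf, Subgroup.coe_pow]
    exact hj
  obtain ⟨S⟩ : Nonempty (Sylow p ↥RG) := inferInstance
  have hcompl := isComplement'_of_normal_coprime (N.subgroupOf RG) hN'p hq S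
  obtain ⟨hcd, hcp⟩ := Cfsg.Agent.Helper1.isComplement'_iff_elem.mp hcompl
  refine ⟨(S : Subgroup ↥RG).map RG.subtype, ?_⟩
  rw [Cfsg.Agent.Helper1.isComplement'_iff_elem]
  constructor
  · rintro x ⟨s, hs, rfl⟩ hxN
    have h1 := hcd s (Subgroup.mem_subgroupOf.mpr hxN) hs
    rw [h1]; rfl
  · intro g
    obtain ⟨x, hx, n₁, hn₁, rfl⟩ := hXN g
    obtain ⟨q, hq', r, hr, hxqr⟩ := hdec ⟨x, hx⟩
    have hrRG : (r : G) ∈ RG := by
      rw [hRG]; exact ⟨r, hr, rfl⟩
    obtain ⟨n₂, hn₂, s, hs, hrs⟩ := hcp ⟨(r : G), hrRG⟩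
    have hqN : (q : G) ∈ N := hQN (Subgroup.mem_subgroupOf.mp hq')
    have hn₂N : ((n₂ : ↥RG) : G) ∈ N := Subgroup.mem_subgroupOf.mp hn₂
    have hx' : x = (q : G) * (r : G) := congrArg Subtype.val hxqr
    have hr' : (r : G) = ((n₂ : ↥RG) : G) * ((s : ↥RG) : G) := congrArg Subtype.val hrs
    refine ⟨((s : ↥RG) : G), ⟨s, hs, rfl⟩,
      ((s : ↥RG) : G)⁻¹ * ((q : G) * ((n₂ : ↥RG) : G)) * ((s : ↥RG) : G) * n₁, ?_, ?_⟩
    · refine N.mul_mem ?_ hn₁
      have := hNn.conj_mem _ (N.mul_mem hqN hn₂N) ((s : ↥RG) : G)⁻¹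
      rwa [inv_inv] at this
    · rw [hx', hr']; group

/-- Splitting over a normal subgroup with `p`-group quotient whose Sylow `p`-subgroup is abelian
and meets the centre of its normaliser trivially. -/
theorem split_of_abelian_sylow {G : Type*} [Group G] [Finite G] {p : ℕ} [Fact p.Prime]
    (N : Subgroup G) [hNn : N.Normal] (hNp : ∀ g : G, ∃ j : ℕ, g ^ p ^ j ∈ N)
    (Q₀ : Sylow p ↥N) [hc : IsMulCommutative ↥(Q₀ : Subgroup ↥N)]
    (hC₀ : ∀ z ∈ (Q₀ : Subgroup ↥N),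
      z ∈ centralizer ((normalizer ((Q₀ : Subgroup ↥N) : Set ↥N) : Subgroup ↥N) : Set ↥N) →
        z = 1) :
    ∃ K : Subgroup G, K.IsComplement' N := by
  classical
  have hFr : normalizer ((((Q₀ : Subgroup ↥N).map N.subtype : Subgroup G)) : Set G) ⊔ N = ⊤ :=
    Sylow.normalizer_sup_eq_top Q₀
  have hQN : (Q₀ : Subgroup ↥N).map N.subtype ≤ N := Subgroup.map_subtype_le _
  refine split_aux N (normalizer ((((Q₀ : Subgroup ↥N).map N.subtype : Subgroup G)) : Set G))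
    ((Q₀ : Subgroup ↥N).map N.subtype) hNp ?_ hQN le_normalizer ?_ ?_ (Q₀.2.map N.subtype) ?_ ?_
  · intro g
    have hg : g ∈ normalizer ((((Q₀ : Subgroup ↥N).map N.subtype : Subgroup G)) : Set G) ⊔ N := by
      rw [hFr]; exact Subgroup.mem_top g
    obtain ⟨y, hy, z, hz, e⟩ := Subgroup.mem_sup_of_normal_right.mp hg
    exact ⟨y, hy, z, hz, e.symm⟩
  · intro x hx q hq
    exact (mem_normalizer_iff.mp hx q).mp hq
  · rintro _ ⟨a, ha, rfl⟩ _ ⟨b, hb, rfl⟩
    have h1 := mul_comm' (⟨a, ha⟩ : ↥(Q₀ : Subgroup ↥N)) ⟨b, hb⟩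
    have h2 : a * b = b * a := congrArg Subtype.val h1
    exact congrArg Subtype.val h2
  · intro hdvd
    have e1 := Subgroup.relIndex_mul_relIndex _ _ _
      (le_inf hQN (le_normalizer (H := (Q₀ : Subgroup ↥N).map N.subtype)))
      (inf_le_left : N ⊓ normalizer ((((Q₀ : Subgroup ↥N).map N.subtype : Subgroup G)) : Set G) ≤ N)
    have e2 : ((Q₀ : Subgroup ↥N).map N.subtype).subgroupOf N = (Q₀ : Subgroup ↥N) :=
      Subgroup.comap_map_eq_self_of_injective N.subtype_injective _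
    have e3 : ((Q₀ : Subgroup ↥N).map N.subtype).relIndex N = (Q₀ : Subgroup ↥N).index := by
      show (((Q₀ : Subgroup ↥N).map N.subtype).subgroupOf N).index = _
      rw [e2]
    have h1 : p ∣ (Q₀ : Subgroup ↥N).index := by
      rw [← e3, ← e1]; exact Dvd.dvd.mul_right hdvd _
    exact Q₀.not_dvd_index h1
  · rintro _ ⟨z, hz, rfl⟩ hcen
    have hz1 : z = 1 := by
      apply hC₀ z hz
      rw [mem_centralizer_iff]
      intro n hn
      have hnX : (n : G) ∈
          normalizer ((((Q₀ : Subgroup ↥N).map N.subtype : Subgroup G)) : Set G) := by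
        apply mem_normalizer_fintype
        rintro _ ⟨b, hb, rfl⟩
        exact ⟨n * b * n⁻¹, (mem_normalizer_iff.mp hn b).mp hb, rfl⟩
      have := hcen (n : G) n.2 hnX
      exact Subtype.ext this
    rw [hz1]; rfl

end Cfsg.Agent.Lead
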